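import Cfsg.Agent.ZJF.Sec
import Cfsg.Agent.Trans.ZJ
import Cfsg.Agent.Solv.CommCalc

/-!
The local core of Glauberman's theorem on the failure of `ZJ`-control of fusion.
-/

set_option autoImplicit false

open Subgroup Cfsg.Lib.Trans Cfsg.Lib.Trans.TJ Cfsg.Lib.Solv
open scoped commutatorElement

namespace Cfsg.Lib.ZJF

local notation "𝐂" A:max => Subgroup.centralizer (SetLike.coe A)
local notation "𝐍" A:max => Subgroup.normalizer (SetLike.coe A)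

variable {p : ℕ} {G : Type*} [Group G]

/-- abelian `p`-subgroups of `Y` of maximal order. -/
def St (p : ℕ) (Y A : Subgroup G) : Prop :=
  A ≤ Y ∧ IsPGroup p A ∧ IsElementaryAbelian 0 A ∧
    ∀ B ≤ Y, IsPGroup p B → IsElementaryAbelian 0 B → Nat.card B ≤ Nat.card A

/-- the subgroup generated by the members of `St` inside `R`. -/
def Js (p : ℕ) (Y R : Subgroup G) : Subgroup G := sSup {A | St p Y A ∧ A ≤ R}

section

variable {Y A A' R R' T X : Subgroup G} {y : G}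

theorem St.maxEA (h : St p Y A) (h1 : A ≤ R) (h2 : R ≤ Y) (h3 : IsPGroup p R) : MaxEA 0 R A :=
  ⟨h1, h.2.2.1, fun B hB hB' => h.2.2.2 B (hB.trans h2) (h3.to_le hB) hB'⟩

theorem St.of_maxEA (h : St p Y A) (h1 : A ≤ R) (h2 : R ≤ Y) (h3 : IsPGroup p R)
    (h4 : MaxEA 0 R A') : St p Y A' :=
  ⟨h4.le.trans h2, h3.to_le h4.le, h4.ea, fun B a b c =>
    (h.2.2.2 B a b c).trans (h4.card_le h1 h.2.2.1)⟩

theorem st_of_maxEA [Finite G] [Fact p.Prime] (hT : IsSylowIn p T Y) (h : MaxEA 0 T A) :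
    St p Y A :=
  ⟨h.le.trans hT.le, hT.isPGroup.to_le h.le, h.ea, fun B a b c => by
    obtain ⟨x, -, hx⟩ := hT.exists_cj_le b a
    exact card_cj x B ▸ h.card_le hx (ea_map c _)⟩

theorem St.cj (h : St p Y A) (hy : y ∈ Y) : St p Y (cj y A) :=
  ⟨cj_le_of_mem_of_le hy h.1, isPGroup_cj h.2.1 y, ea_map h.2.2.1 _, fun B a b c =>
    (card_cj y A).symm ▸ h.2.2.2 B a b c⟩

theorem St.le_Js (h : St p Y A) (h1 : A ≤ R) : A ≤ Js p Y R := le_sSup ⟨h, h1⟩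

theorem Js_le_iff : Js p Y R ≤ X ↔ ∀ A, St p Y A → A ≤ R → A ≤ X :=
  ⟨fun h _ h1 h2 => (h1.le_Js h2).trans h, fun h => sSup_le fun A hA => h A hA.1 hA.2⟩

theorem Js_le : Js p Y R ≤ R := Js_le_iff.2 fun _ _ h => h

theorem Js_mono (h : R ≤ R') : Js p Y R ≤ Js p Y R' :=
  Js_le_iff.2 fun _ h1 h2 => h1.le_Js (h2.trans h)

theorem cj_Js_le (hy : y ∈ Y) (h : cj y (Js p Y R) ≤ R') : cj y (Js p Y R) ≤ Js p Y R' := by
  rw [cj_le_iff_le_cj_inv, Js_le_iff]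
  intro A h1 h2
  rw [← cj_le_iff_le_cj_inv]
  exact (h1.cj hy).le_Js ((cj_mono y (h1.le_Js h2)).trans h)

theorem mem_normalizer_Js [Finite G] (hy : y ∈ Y) (h : y ∈ 𝐍 R) : y ∈ 𝐍 (Js p Y R) :=
  mem_normalizer_of_cj_le
    (cj_Js_le hy ((cj_mono y Js_le).trans (cj_eq_of_mem_normalizer h).le))

theorem Js_eq [Finite G] [Fact p.Prime] (hT : IsSylowIn p T Y) :
    Js p Y T = thompsonSubgroupOf 0 T :=
  le_antisymm (Js_le_iff.2 fun _ h1 h2 => (h1.maxEA h2 hT.le hT.isPGroup).le_J)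
    (J_le_iff.2 fun _ h => (st_of_maxEA hT h).le_Js h.le)

end

/-- `I` normalises two different conjugates of `D`. -/
def Two (Y D I : Subgroup G) : Prop :=
  ∃ y ∈ Y, ∃ z ∈ Y, cj y D ≠ cj z D ∧ I ≤ 𝐍 (cj y D) ∧ I ≤ 𝐍 (cj z D)

/-- `p`-subgroups generated by members of `St` and normalising two conjugates of `D`. -/
def Good (p : ℕ) (Y D I : Subgroup G) : Prop :=
  I ≤ Y ∧ IsPGroup p I ∧ I ≤ Js p Y I ∧ Two Y D I

theorem cj_le_normalizer_cj {I X : Subgroup G} (h : I ≤ 𝐍 X) (g : G) : cj g I ≤ 𝐍 (cj g X) :=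
  cj_normalizer g X ▸ cj_mono g h

theorem Good.cj {Y D I : Subgroup G} (h : Good p Y D I) {x : G} (hx : x ∈ Y) :
    Good p Y D (cj x I) := by
  obtain ⟨h1, h2, h3, y, hy, z, hz, h4, h5, h6⟩ := h
  refine ⟨cj_le_of_mem_of_le hx h1, isPGroup_cj h2 x,
    (cj_mono x h3).trans (cj_Js_le hx (cj_mono x Js_le)), x * y, mul_mem hx hy, x * z,
    mul_mem hx hz, ?_, ?_, ?_⟩
  · rw [cj_mul, cj_mul]; exact fun e => h4 (cj_inj.1 e)
  · rw [cj_mul]; exact cj_le_normalizer_cj h5 x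
  · rw [cj_mul]; exact cj_le_normalizer_cj h6 x

/-- The hypotheses of the local analysis. -/
structure Hyp (p : ℕ) (Y W B D T : Subgroup G) : Prop where
  syl : IsSylowIn p T Y
  BT : B ≤ T
  YB : Y ≤ 𝐍 B
  BB : ⁅B, B⁆ ≤ W
  Bp : ∀ b ∈ B, b ^ p ∈ W
  DB : D ≤ B
  TD : T ≤ 𝐍 D
  nD : ¬ Y ≤ 𝐍 D
  JW : thompsonSubgroupOf 0 T ≤ 𝐂 W
  nJ : Y ⊓ 𝐍 (thompsonSubgroupOf 0 T) ≤ 𝐍 D
  TI : ∀ d ∈ D, d ∉ W → ∀ k ∈ Y, k * d * k⁻¹ * d⁻¹ ∈ W → k ∈ 𝐍 D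
  cen : ∀ I ≤ thompsonSubgroupOf 0 T, ∃ d ∈ D, d ∉ W ∧ d ∈ 𝐂 I

namespace Hyp

variable [Finite G] [hp : Fact p.Prime] {Y W B D T : Subgroup G}

theorem exists_cj (h : Hyp p Y W B D T) {I : Subgroup G} (h1 : I ≤ Y) (h2 : IsPGroup p I) {y : G}
    (hy : y ∈ Y) (h3 : I ≤ 𝐍 (cj y D)) : ∃ z ∈ Y, cj z I ≤ T ∧ cj z (cj y D) = D := by
  have hM : IsSylowIn p T (Y ⊓ 𝐍 D) := h.syl.mono (le_inf h.syl.le h.TD) inf_le_left
  have h4 := cj_le_normalizer_cj h3 y⁻¹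
  rw [cj_inv_cj] at h4
  obtain ⟨m, hm, h5⟩ := hM.exists_cj_le (isPGroup_cj h2 y⁻¹)
    (le_inf (cj_le_of_mem_of_le (inv_mem hy) h1) h4)
  refine ⟨m * y⁻¹, mul_mem hm.1 (inv_mem hy), by rwa [cj_mul], ?_⟩
  rw [cj_mul, cj_inv_cj, cj_eq_of_mem_normalizer hm.2]

theorem not_two (h : Hyp p Y W B D T) : ¬ Two Y D (Js p Y T) := by
  have key : ∀ y ∈ Y, Js p Y T ≤ 𝐍 (cj y D) → cj y D = D := fun y hy h1 => by
    obtain ⟨z, hz, h2, h3⟩ := h.exists_cj (Js_le.trans h.syl.le) (h.syl.isPGroup.to_le Js_le) hy h1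
    have h4 := mem_normalizer_of_cj_le (cj_Js_le hz h2)
    rw [Js_eq h.syl] at h4
    rw [cj_eq_iff_eq_cj_inv.1 h3, cj_eq_of_mem_normalizer (inv_mem (h.nJ ⟨hz, h4⟩))]
  rintro ⟨y, hy, z, hz, h1, h2, h3⟩
  exact h1 ((key y hy h2).trans (key z hz h3).symm)

theorem step (h : Hyp p Y W B D T) {I : Subgroup G} (hI : Good p Y D I) (hIT : I ≤ T) :
    ∃ A, St p Y A ∧ A ≤ T ⊓ 𝐍 I ∧ ¬ A ≤ I := by
  by_contra hc
  push Not at hc
  have h1 : Js p Y (T ⊓ 𝐍 I) = I :=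
    le_antisymm (Js_le_iff.2 hc) (hI.2.2.1.trans (Js_mono (le_inf hIT le_normalizer)))
  have h2 : T ⊓ 𝐍 I = T := by
    by_contra hne
    refine (lt_inf_normalizer h.syl.isPGroup (lt_of_le_of_ne inf_le_left hne)).not_ge
      fun x hx => ⟨hx.1, ?_⟩
    have := mem_normalizer_Js (p := p) (h.syl.le hx.1) hx.2
    rwa [h1] at this
  rw [h2] at h1
  exact h.not_two (h1 ▸ hI.2.2.2)

theorem step' (h : Hyp p Y W B D T) {I : Subgroup G} (hI : Good p Y D I) {y : G} (hy : y ∈ Y)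
    (h1 : I ≤ 𝐍 (cj y D)) : ∃ A, St p Y A ∧ A ≤ 𝐍 I ∧ A ≤ 𝐍 (cj y D) ∧ ¬ A ≤ I := by
  obtain ⟨z, hz, h2, h3⟩ := h.exists_cj hI.1 hI.2.1 hy h1
  obtain ⟨A, h4, h5, h6⟩ := h.step (hI.cj hz) h2
  refine ⟨cj z⁻¹ A, h4.cj (inv_mem hz), ?_, ?_, fun h7 => h6 (cj_inv_le_iff_le_cj.1 h7)⟩
  · have := cj_le_normalizer_cj (h5.trans inf_le_right) z⁻¹
    rwa [cj_inv_cj] at this
  · rw [cj_eq_iff_eq_cj_inv.1 h3]
    exact cj_le_normalizer_cj ((h5.trans inf_le_left).trans h.TD) z⁻¹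

theorem le_centralizer (h : Hyp p Y W B D T) [W.Normal] {A : Subgroup G} (hA : St p Y A) :
    A ≤ 𝐂 W := by
  obtain ⟨x, hx, h1⟩ := h.syl.exists_cj_le hA.2.1 hA.1
  have h2 := ((hA.cj hx).le_Js h1).trans ((Js_eq h.syl).le.trans h.JW)
  rwa [← cj_eq_of_normal x W, ← cj_centralizer, cj_le_cj] at h2

theorem exists_good (h : Hyp p Y W B D T) : ∃ I, Good p Y D I ∧ I ≤ T ∧
    (∃ y ∈ Y, cj y D ≠ D ∧ I ≤ 𝐍 (cj y D)) ∧
    ∀ A, St p Y A → A ≤ 𝐍 I → ¬ A ≤ I → ¬ Two Y D (I ⊔ A) := by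
  have h0 : Good p Y D ⊥ := by
    obtain ⟨y, hy, hyD⟩ := SetLike.not_le_iff_exists.1 h.nD
    exact ⟨bot_le, IsPGroup.of_bot, bot_le, y, hy, 1, one_mem _,
      fun e => hyD (cj_eq_self_iff.1 (by rwa [cj_one] at e)), bot_le, bot_le⟩
  obtain ⟨I, hI, hmax⟩ := Set.exists_max_image {I | Good p Y D I} (fun I => Nat.card I)
    (Set.toFinite _) ⟨⊥, h0⟩
  obtain ⟨y, hy, z, hz, h1, h2, h3⟩ := hI.2.2.2
  obtain ⟨x, hx, h4, h5⟩ := h.exists_cj hI.1 hI.2.1 hy h2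
  have hI' := Good.cj hI hx
  refine ⟨cj x I, hI', h4, ⟨x * z, mul_mem hx hz, ?_, ?_⟩, fun A hA h6 h7 h8 => ?_⟩
  · rw [cj_mul]
    exact fun e => h1 (cj_inj.1 (h5.trans e.symm))
  · rw [cj_mul]; exact cj_le_normalizer_cj h3 x
  · have h9 := hmax (cj x I ⊔ A) ⟨sup_le hI'.1 hA.1,
      IsPGroup.to_sup_of_normal_left' hI'.2.1 hA.2.1 h6,
      sup_le (hI'.2.2.1.trans (Js_mono le_sup_left)) (hA.le_Js le_sup_right), h8⟩
    have h10 := card_lt_of_lt (left_lt_sup.2 h7)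
    rw [card_cj] at h10
    exact h10.not_ge h9

theorem exists_quad (hp2 : p ≠ 2) (h : Hyp p Y W B D T) [W.Normal] {I : Subgroup G}
    (hI : Good p Y D I) (hIT : I ≤ T) :
    ∃ A, St p Y A ∧ A ≤ T ⊓ 𝐍 I ∧ ¬ A ≤ I ∧ B ⊓ 𝐂 I ≤ 𝐍 A := by
  obtain ⟨A, ⟨h1, h2, h3⟩, hmax⟩ := Set.exists_max_image {A | St p Y A ∧ A ≤ T ⊓ 𝐍 I ∧ ¬ A ≤ I}
    (fun A => Nat.card (A ⊓ (B ⊓ 𝐂 I) : Subgroup G)) (Set.toFinite _) (h.step hI hIT)
  refine ⟨A, h1, h2, h3, ?_⟩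
  by_contra hn
  have hP : IsPGroup p (T ⊓ 𝐍 I : Subgroup G) := h.syl.isPGroup.to_le inf_le_left
  have hPY : T ⊓ 𝐍 I ≤ Y := inf_le_left.trans h.syl.le
  have hBP : B ⊓ 𝐂 I ≤ T ⊓ 𝐍 I := inf_le_inf h.BT (centralizer_le_normalizer _)
  obtain ⟨A', h4, h5, h6, -⟩ := exists_replacement (n := 0) (Or.inl rfl) hP le_rfl le_normalizer hBP
    ((inf_le_inf (h.syl.le.trans h.YB) (Solv.normalizer_le_normalizer_centralizer I)).trans
      inf_normalizer_le_normalizer_inf) (Or.inl hp2) (h1.maxEA h2 hPY hP)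
    (commutator_eq_bot_iff_le_centralizer.2 (((commutator_mono inf_le_left inf_le_left).trans
      h.BB).trans (le_centralizer_iff.1 (h.le_centralizer h1)))) hn
  have h7 : A' ≤ I := by
    by_contra h7
    exact (card_lt_of_lt h5).not_ge (hmax A' ⟨h1.of_maxEA h2 hPY hP h4, h4.le, h7⟩)
  exact hn fun b hb => h6 (h4.mem_of_mem_centralizer (hBP hb) (centralizer_le h7 hb.2) (pow_zero b))

theorem fc (hp2 : p ≠ 2) (h : Hyp p Y W B D T) [W.Normal] (lam : (ZMod p)ˣ) :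
    FC (𝐍 D) D lam := by
  obtain ⟨I, hI, hIT, ⟨y, hy, hyD, hIy⟩, huniq⟩ := h.exists_good
  obtain ⟨A, hA, hAT, hAI, hBA⟩ := h.exists_quad hp2 hI hIT
  have hQT : I ⊔ A ≤ T := sup_le hIT (hAT.trans inf_le_left)
  have hQN : I ⊔ A ≤ Y ⊓ 𝐍 I :=
    le_inf (hQT.trans h.syl.le) (sup_le le_normalizer (hAT.trans inf_le_right))
  have hN : ¬ Y ⊓ 𝐍 I ≤ 𝐍 D := fun h1 => by
    obtain ⟨A', h2, h3, h4, h5⟩ := h.step' hI hy hIy
    refine huniq A' h2 h3 h5 ⟨y, hy, 1, one_mem _, by rwa [cj_one], sup_le hIy h4, ?_⟩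
    rw [cj_one]
    exact sup_le (hIT.trans h.TD) ((le_inf h2.1 h3).trans h1)
  obtain ⟨K, ⟨hQK, hKN, hKM⟩, hmin⟩ := (wellFounded_lt (α := Subgroup G)).has_min
    {K | I ⊔ A ≤ K ∧ K ≤ Y ⊓ 𝐍 I ∧ ¬ K ≤ 𝐍 D} ⟨_, hQN, le_rfl, hN⟩
  have hNB : Y ⊓ 𝐍 I ≤ 𝐍 (B ⊓ 𝐂 I) :=
    (inf_le_inf h.YB (Solv.normalizer_le_normalizer_centralizer I)).trans
      inf_normalizer_le_normalizer_inf
  have hE : I ⊔ A ≤ 𝐂 (B ⊓ 𝐂 I ⊓ A) :=
    sup_le (le_centralizer_iff.1 (inf_le_left.trans inf_le_right))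
      (le_centralizer_iff.1 (inf_le_right.trans (ea_le_centralizer hA.2.2.1)))
  have hE' := hE.trans (centralizer_le_normalizer _)
  refine fc_of_uq hp2 (K := K) (Q := I ⊔ A) (B := B ⊓ 𝐂 I) (W := W)
    ((h.syl.isPGroup.to_le h.BT).to_le inf_le_left) (hKN.trans hNB)
    ((commutator_mono inf_le_left inf_le_left).trans h.BB) (fun b hb => h.Bp b hb.1) hQK
    (hQT.trans h.TD) hKM (h.syl.isPGroup.to_le hQT) (fun L h1 h2 => ?_) (fun g hg hgM h1 => ?_) ?_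
    ?_ le_rfl ((inf_le_left.trans h.BT).trans h.TD)
    (fun d hd _ hdW k hk h1 => h.TI d hd hdW k (hKN hk).1 h1) lam
  · by_contra h3
    exact hmin L ⟨h1, h2.le.trans hKN, h3⟩ h2
  · have h2 := cj_eq_of_mem_normalizer (hKN hg).2
    have h3 := cj_le_normalizer_cj (hQT.trans h.TD) g
    rw [cj_sup, h2] at h1 h3
    refine huniq (cj g A) (hA.cj (hKN hg).1) ?_ (fun h4 => hAI ?_)
      ⟨g, (hKN hg).1, 1, one_mem _, ?_, h3, by rwa [cj_one]⟩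
    · have := cj_le_normalizer_cj (hAT.trans inf_le_right) g
      rwa [h2] at this
    · rwa [← h2, cj_le_cj] at h4
    · rw [cj_one]
      exact fun e => hgM (cj_eq_self_iff.1 e)
  · have h1 : ⁅B ⊓ 𝐂 I, I ⊔ A⁆ ≤ B ⊓ 𝐂 I ⊓ A :=
      commutator_sup_right_le_of_le_normalizer (le_sup_left.trans hE') (le_sup_right.trans hE')
        ((commutator_eq_bot_iff_le_centralizer.2 inf_le_right).le.trans bot_le)
        (le_inf (commutator_le_left_of_le_normalizer ((le_sup_right.trans hQN).trans hNB))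
          (commutator_le_right_of_le_normalizer hBA))
    refine (commutator_mono h1 le_rfl).trans ?_
    rw [commutator_eq_bot_iff_le_centralizer.2 (le_centralizer_iff.1 hE)]
    exact bot_le
  · obtain ⟨d, h1, h2, h3⟩ := h.cen I (hI.2.2.1.trans ((Js_mono hIT).trans (Js_eq h.syl).le))
    exact ⟨d, h1, ⟨h.DB h1, h3⟩, h2⟩

end Hyp

end Cfsg.Lib.ZJF
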