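import Cfsg.Agent.ZJF.Lin2
import Cfsg.Agent.Trans.Control

/-!
The group-theoretic configuration: a section `F_p²` on which a `p`-group acts unitriangularly and
an element acts diagonally.
-/

set_option autoImplicit false

open Subgroup Matrix Cfsg.Lib.Trans Cfsg.Lib.Trans.Quad Cfsg.Lib.Trans.Qd Cfsg.Lib.Solv
open scoped commutatorElement

namespace Cfsg.Lib.ZJF

local notation "𝐂" A:max => Subgroup.centralizer (SetLike.coe A)
local notation "𝐍" A:max => Subgroup.normalizer (SetLike.coe A)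

variable {p : ℕ} [hp : Fact p.Prime] {G G' : Type*} [Group G] [Group G']

/-- `g` normalises `B` and acts on the coordinates `e` through the matrix `m`. -/
def Act (B : Subgroup G) (e : G → Fin 2 → ZMod p) (g : G)
    (m : SpecialLinearGroup (Fin 2) (ZMod p)) : Prop :=
  ∀ x ∈ B, g * x * g⁻¹ ∈ B ∧ e (g * x * g⁻¹) = m.1 *ᵥ e x

namespace Act

variable {B : Subgroup G} {e : G → Fin 2 → ZMod p} {g h : G}
  {m n : SpecialLinearGroup (Fin 2) (ZMod p)}

theorem one : Act B e 1 1 := fun x hx => by simpa using hx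

theorem mul (h1 : Act B e g m) (h2 : Act B e h n) : Act B e (g * h) (m * n) := fun x hx => by
  rw [show g * h * x * (g * h)⁻¹ = g * (h * x * h⁻¹) * g⁻¹ by group, mul_mulVec, ← (h2 x hx).2]
  exact h1 _ (h2 x hx).1

theorem mem_normalizer [Finite G] (h1 : Act B e g m) : g ∈ 𝐍 B :=
  mem_normalizer_of_cj_le (cj_le_iff.2 fun x hx => (h1 x hx).1)

theorem inv [Finite G] (h1 : Act B e g m) : Act B e g⁻¹ m⁻¹ := fun x hx => by
  have h2 := mem_normalizer_conj (inv_mem h1.mem_normalizer) hx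
  refine ⟨h2, ?_⟩
  have h3 := (h1 _ h2).2
  rw [show g * (g⁻¹ * x * g⁻¹⁻¹) * g⁻¹ = x by group] at h3
  rw [h3, ← mul_mulVec, inv_mul_cancel, Matrix.SpecialLinearGroup.coe_one, one_mulVec]

theorem pow (h1 : Act B e g m) (k : ℕ) : Act B e (g ^ k) (m ^ k) := by
  induction k with
  | zero => rw [pow_zero, pow_zero]; exact one
  | succ k ih => rw [pow_succ, pow_succ]; exact ih.mul h1

theorem of_mem (hadd : ∀ x ∈ B, ∀ y ∈ B, e (x * y) = e x + e y) (hg : g ∈ B) : Act B e g 1 :=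
  fun x hx => by
    have h1 := B.mul_mem (B.mul_mem hg hx) (B.inv_mem hg)
    refine ⟨h1, ?_⟩
    have h2 := hadd _ h1 g hg
    rw [inv_mul_cancel_right, hadd g hg x hx, add_comm, add_left_inj] at h2
    rw [← h2, Matrix.SpecialLinearGroup.coe_one, one_mulVec]

theorem unique (hs : ∀ y, ∃ x ∈ B, e x = y) (h1 : Act B e g m) (h2 : Act B e g n) : m = n := by
  apply natRep_injective
  refine LinearMap.ext fun y => ?_
  obtain ⟨x, hx, rfl⟩ := hs y
  rw [natRep_apply, natRep_apply, ← (h1 x hx).2, (h2 x hx).2]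

theorem of_centralizer (h1 : Act B e g m) (hc : h⁻¹ * g ∈ 𝐂 B) : Act B e h m := fun x hx => by
  rw [conj_eq_of_inv_mul_mem_centralizer hc hx]; exact h1 x hx

end Act

theorem upT_mul {K : Type*} [Field K] (a b : K) : upT a * upT b = upT (a + b) := by
  apply Subtype.ext
  rw [Matrix.SpecialLinearGroup.coe_mul]
  ext i j
  fin_cases i <;> fin_cases j <;> simp [upT, add_comm]

theorem upT_inv {K : Type*} [Field K] (a : K) : (upT a)⁻¹ = upT (-a) :=
  inv_eq_of_mul_eq_one_right (by rw [upT_mul, add_neg_cancel, upT_zero])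

/-- the elements acting unitriangularly. -/
def unip [Finite G] (B : Subgroup G) (e : G → Fin 2 → ZMod p) : Subgroup G where
  carrier := {g | ∃ c, Act B e g (upT c)}
  one_mem' := ⟨0, upT_zero (K := ZMod p) ▸ Act.one⟩
  mul_mem' := by
    rintro a b ⟨c, hc⟩ ⟨d, hd⟩
    exact ⟨c + d, upT_mul c d ▸ hc.mul hd⟩
  inv_mem' := by
    rintro a ⟨c, hc⟩
    exact ⟨-c, upT_inv c ▸ hc.inv⟩

/-- The configuration. -/
structure FD (N D : Subgroup G) (lam : (ZMod p)ˣ) (R B : Subgroup G) (τ : G)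
    (e : G → Fin 2 → ZMod p) : Prop where
  RN : R ≤ N
  pR : IsPGroup p R
  BR : B ≤ R
  τN : τ ∈ N
  τR : τ ∈ 𝐍 R
  add : ∀ x ∈ B, ∀ y ∈ B, e (x * y) = e x + e y
  surj : ∀ y, ∃ x ∈ B, e x = y
  actR : ∀ r ∈ R, ∃ c : ZMod p, Act B e r (upT c)
  nt : ∃ r ∈ R, Act B e r (upT 1)
  actτ : Act B e τ (dg lam)
  vec : ∃ d ∈ D, d ∈ B ∧ e d = ![1, 0]

/-- existence of a configuration. -/
def FC (N D : Subgroup G) (lam : (ZMod p)ˣ) : Prop := ∃ R B τ e, FD N D lam R B τ e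

namespace FD

variable {N D R B : Subgroup G} {lam : (ZMod p)ˣ} {τ : G} {e : G → Fin 2 → ZMod p}

theorem change (h : FD N D lam R B τ e) {N' D' : Subgroup G} {t : G} (h1 : R ≤ N') (h2 : t ∈ N')
    (h3 : D ≤ D') (hc : t⁻¹ * τ ∈ 𝐂 R) : FD N' D' lam R B t e where
  RN := h1
  pR := h.pR
  BR := h.BR
  τN := h2
  τR := by
    have := mul_mem h.τR (inv_mem (centralizer_le_normalizer _ hc))
    simpa using this
  add := h.add
  surj := h.surj
  actR := h.actR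
  nt := h.nt
  actτ := h.actτ.of_centralizer (centralizer_le h.BR hc)
  vec := by obtain ⟨d, h1, h2⟩ := h.vec; exact ⟨d, h3 h1, h2⟩

theorem map (h : FD N D lam R B τ e) {f : G →* G'} (hf : Function.Injective f) :
    FD (N.map f) (D.map f) lam (R.map f) (B.map f) (f τ) (fun y => e (Function.invFun f y)) := by
  have hi : ∀ x, Function.invFun f (f x) = x := Function.leftInverse_invFun hf
  have ha : ∀ g m, Act B e g m →
      Act (B.map f) (fun y => e (Function.invFun f y)) (f g) m := by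
    rintro g m hg _ ⟨x, hx, rfl⟩
    rw [← map_inv, ← map_mul, ← map_mul]
    exact ⟨⟨_, (hg x hx).1, rfl⟩, by simp only [hi]; exact (hg x hx).2⟩
  refine ⟨map_mono h.RN, h.pR.map f, map_mono h.BR, ⟨τ, h.τN, rfl⟩,
    le_normalizer_map f ⟨τ, h.τR, rfl⟩, ?_, fun y => ?_, ?_, ?_, ha _ _ h.actτ, ?_⟩
  · rintro _ ⟨x, hx, rfl⟩ _ ⟨y, hy, rfl⟩
    rw [← map_mul, hi, hi, hi, h.add x hx y hy]
  · obtain ⟨x, hx, rfl⟩ := h.surj y
    exact ⟨f x, ⟨x, hx, rfl⟩, by rw [hi]⟩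
  · rintro _ ⟨r, hr, rfl⟩
    obtain ⟨c, hc⟩ := h.actR r hr
    exact ⟨c, ha _ _ hc⟩
  · obtain ⟨r, hr, h1⟩ := h.nt
    exact ⟨f r, ⟨r, hr, rfl⟩, ha _ _ h1⟩
  · obtain ⟨d, h1, h2, h3⟩ := h.vec
    exact ⟨f d, ⟨d, h1, rfl⟩, ⟨d, h2, rfl⟩, by rw [hi, h3]⟩

end FD

namespace FC

variable {N D : Subgroup G} {lam : (ZMod p)ˣ}

theorem mono (h : FC N D lam) {N' D' : Subgroup G} (h1 : N ≤ N') (h2 : D ≤ D') : FC N' D' lam := by
  obtain ⟨R, B, τ, e, h⟩ := h
  exact ⟨R, B, τ, e, h.change (h.RN.trans h1) (h1 h.τN) h2 (by rw [inv_mul_cancel]; exact one_mem _)⟩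

theorem map (h : FC N D lam) {f : G →* G'} (hf : Function.Injective f) :
    FC (N.map f) (D.map f) lam := by
  obtain ⟨R, B, τ, e, h⟩ := h
  exact ⟨_, _, _, _, h.map hf⟩

theorem comap {N D : Subgroup G'} (h : FC N D lam) {f : G →* G'} (hf : Function.Surjective f)
    (hk : IsPGroup p f.ker) : FC (N.comap f) (D.comap f) lam := by
  obtain ⟨R, B, τ, e, h⟩ := h
  obtain ⟨t, rfl⟩ := hf τ
  have ha : ∀ g m, Act B e (f g) m → Act (B.comap f) (fun x => e (f x)) g m := by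
    intro g m hg x hx
    simp only [mem_comap, map_mul, map_inv]
    exact hg _ hx
  refine ⟨R.comap f, B.comap f, t, fun x => e (f x), comap_mono h.RN,
    h.pR.comap_of_ker_isPGroup f hk, comap_mono h.BR, h.τN, le_normalizer_comap f h.τR,
    fun x hx y hy => ?_, fun y => ?_, fun r hr => ?_, ?_, ha _ _ h.actτ, ?_⟩
  · rw [map_mul]; exact h.add _ hx _ hy
  · obtain ⟨x, hx, rfl⟩ := h.surj y
    obtain ⟨x, rfl⟩ := hf x
    exact ⟨x, hx, rfl⟩
  · obtain ⟨c, hc⟩ := h.actR _ hr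
    exact ⟨c, ha _ _ hc⟩
  · obtain ⟨r, hr, h1⟩ := h.nt
    obtain ⟨r, rfl⟩ := hf r
    exact ⟨r, hr, ha _ _ h1⟩
  · obtain ⟨d, h1, h2, h3⟩ := h.vec
    obtain ⟨d, rfl⟩ := hf d
    exact ⟨d, h1, h2, h3⟩

/-- moving a configuration into `X` when `X` controls fusion. -/
theorem realize [Finite G] {L T X D' : Subgroup G} (h : FC L D lam) (hT : IsSylowIn p T L)
    (hLD : L ≤ 𝐍 D) (hTX : T ≤ X) (hc : CtlFus (X : Set G) T L) (hD : D ≤ D') : FC X D' lam := by
  obtain ⟨R, B, τ, e, h⟩ := h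
  obtain ⟨l, hl, hlR⟩ := hT.exists_cj_le h.pR h.RN
  have h1 := h.map (f := (MulAut.conj l).toMonoidHom) (MulAut.conj l).injective
  rw [cj_def, cj_def, cj_def, cj_eq_of_mem hl, cj_eq_of_mem_normalizer (hLD hl)] at h1
  obtain ⟨x, hx, c, hc, hxc⟩ := ctlFus_subgroup_iff'.1 hc _ hlR _ h1.τN
    ((cj_eq_of_mem_normalizer h1.τR).le.trans hlR)
  exact ⟨_, _, x, _, h1.change (hlR.trans hTX) hx hD (by rw [hxc, inv_mul_cancel_left]; exact hc)⟩

end FC

end Cfsg.Lib.ZJF
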