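import Cfsg.Agent.ZJF.Defs

/-!
Consequences of the configuration: the group `F(p)` is involved, and an element of order `p` has
full automizer.
-/

set_option autoImplicit false

open Subgroup Matrix Cfsg.Lib.Trans Cfsg.Lib.Trans.Quad Cfsg.Lib.Trans.Qd Cfsg.Lib.Solv
open scoped commutatorElement

namespace Cfsg.Lib.ZJF

local notation "𝐂" A:max => Subgroup.centralizer (SetLike.coe A)
local notation "𝐍" A:max => Subgroup.normalizer (SetLike.coe A)

variable {p : ℕ} [hp : Fact p.Prime] {G : Type*} [Group G]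

/-- upper triangular matrices. -/
def bor (K : Type*) [Field K] : Subgroup (SpecialLinearGroup (Fin 2) K) where
  carrier := {m | m.1 1 0 = 0}
  one_mem' := by simp
  mul_mem' := fun {a b} ha hb => by
    show (a * b).1 1 0 = 0
    rw [Matrix.SpecialLinearGroup.coe_mul, mul_apply, Fin.sum_univ_two,
      (show a.1 1 0 = 0 from ha), (show b.1 1 0 = 0 from hb)]
    simp
  inv_mem' := fun {a} ha => by
    show (a⁻¹).1 1 0 = 0
    rw [Matrix.SpecialLinearGroup.coe_inv, adjugate_fin_two]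
    simpa using ha

theorem fOver_eq (K : Type*) [Field K] :
    fOver K = ((bor K).comap (qdLin K)).map (qdOver K).subtype := by
  apply le_antisymm
  · rw [fOver, closure_le]
    rintro M ⟨h1, h2, h3, h4⟩
    refine ⟨⟨M, mem_qdOver.2 ⟨h2, h3, h4⟩⟩, ?_, rfl⟩
    show (qdLin K _).1 1 0 = 0
    rw [coe_qdLin]
    exact h1
  · rintro _ ⟨M, hM, rfl⟩
    have h1 : (qdLin K M).1 1 0 = 0 := hM
    rw [coe_qdLin] at h1
    exact subset_closure ⟨h1, row_zero M, row_one M, row_two M⟩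

theorem exists_eq_of_mem_bor {K : Type*} [Field K] {m : SpecialLinearGroup (Fin 2) K}
    (hm : m ∈ bor K) : ∃ c u, m = upT c * dg u := by
  have h1 : m.1 1 0 = 0 := hm
  have h2 := m.2
  rw [det_fin_two, h1, mul_zero, sub_zero] at h2
  have h0 : m.1 0 0 ≠ 0 := left_ne_zero_of_mul_eq_one h2
  refine ⟨m.1 0 1 * m.1 0 0, Units.mk0 _ h0, Subtype.ext ?_⟩
  rw [Matrix.SpecialLinearGroup.coe_mul, coe_dg, coe_upT]
  ext i j
  fin_cases i <;> fin_cases j <;> simp [h1, h0]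
  exact eq_inv_of_mul_eq_one_right h2

theorem dg_pow {K : Type*} [Field K] (u : Kˣ) (n : ℕ) : dg u ^ n = dg (u ^ n) := by
  induction n with
  | zero => rw [pow_zero, pow_zero, dg_one]
  | succ n ih => rw [pow_succ, pow_succ, ih, dg_mul]

theorem eq_one_of_sq_pow (hp2 : p ≠ 2) {g : G} {k l : ℕ} (h1 : g ^ 2 ^ k = 1)
    (h2 : g ^ p ^ l = 1) : g = 1 :=
  orderOf_eq_one_iff.mp (Nat.eq_one_of_dvd_coprimes
    (((Nat.coprime_primes Nat.prime_two hp.out).mpr hp2.symm).pow k l)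
    (orderOf_dvd_of_pow_eq_one h1) (orderOf_dvd_of_pow_eq_one h2))

theorem FC.involves [Finite G] (hp2 : p ≠ 2) {N D : Subgroup G} {lam : (ZMod p)ˣ}
    (hl : ∀ u, u ∈ Submonoid.powers lam) (h : FC N D lam) : Involves (fOver (ZMod p)) N := by
  obtain ⟨R, B, τ, e, h⟩ := h
  let Γ₀ : Subgroup (G × bor (ZMod p)) :=
    { carrier := {x | x.1 ∈ N ∧ Act B e x.1 x.2}
      one_mem' := ⟨N.one_mem, Act.one⟩
      mul_mem' := fun ha hb => ⟨N.mul_mem ha.1 hb.1, ha.2.mul hb.2⟩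
      inv_mem' := fun ha => ⟨N.inv_mem ha.1, ha.2.inv⟩ }
  let ψ : Γ₀ →* bor (ZMod p) := (MonoidHom.snd _ _).comp Γ₀.subtype
  have hψ : Function.Surjective ψ := by
    rintro ⟨m, hm⟩
    obtain ⟨c, u, rfl⟩ := exists_eq_of_mem_bor hm
    obtain ⟨r, hr, hra⟩ := h.nt
    obtain ⟨i, rfl⟩ := hl u
    refine ⟨⟨(r ^ c.val * τ ^ i, ⟨_, hm⟩), mul_mem (pow_mem (h.RN hr) _) (pow_mem h.τN _), ?_⟩, rfl⟩
    have := (hra.pow c.val).mul (h.actτ.pow i)
    rwa [upT_pow, mul_one, ZMod.natCast_zmod_val, dg_pow] at this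
  let z : bor (ZMod p) := ⟨-1, by show (-1 : SpecialLinearGroup (Fin 2) (ZMod p)).1 1 0 = 0; simp⟩
  have hZ : IsPGroup 2 (zpowers z) := TJ.ea_isPGroup (TJ.ea_zpowers (Subtype.ext (by simp [z])))
  obtain ⟨S, hS, hSZ, hN⟩ := exists_lift_normalizer ψ hψ hZ
  have hZn : (zpowers z).Normal := ⟨by
    rintro _ ⟨n, rfl⟩ g
    have h1 : Commute g z := Subtype.ext (Commute.neg_one_right g.1).eq
    exact ⟨n, by rw [(h1.zpow_right n).eq, mul_inv_cancel_right]⟩⟩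
  obtain ⟨t, ht, ht1⟩ : z ∈ S.map ψ := hSZ ▸ mem_zpowers _
  have he1 : e 1 = 0 := by
    have := h.add 1 B.one_mem 1 B.one_mem
    rwa [mul_one, left_eq_add] at this
  let Γ : Subgroup (G × qdOver (ZMod p)) :=
    { carrier := {x | ∃ b ∈ B, ∃ n ∈ 𝐍 S, x = (b * n.1.1, mk (e b) n.1.2)}
      one_mem' := ⟨1, B.one_mem, 1, one_mem _, by rw [he1]; exact Prod.ext (by simp) mk_zero_one.symm⟩
      mul_mem' := by
        rintro _ _ ⟨b, hb, n, hn, rfl⟩ ⟨b', hb', n', hn', rfl⟩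
        refine ⟨b * (n.1.1 * b' * n.1.1⁻¹), mul_mem hb (n.2.2 b' hb').1, n * n', mul_mem hn hn',
          Prod.ext ?_ ?_⟩
        · simp [mul_assoc]
        · rw [h.add _ hb _ (n.2.2 b' hb').1, (n.2.2 b' hb').2]
          exact mk_mul _ _ _ _
      inv_mem' := by
        rintro _ ⟨b, hb, n, hn, rfl⟩
        have h1 := n⁻¹.2.2 b⁻¹ (inv_mem hb)
        refine ⟨_, h1.1, n⁻¹, inv_mem hn, Prod.ext ?_ ?_⟩
        · simp [mul_assoc]
        · refine inv_eq_of_mul_eq_one_right ?_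
          show Qd.mk _ _ * Qd.mk _ _ = 1
          rw [mk_mul, h1.2, ← mul_mulVec, ← mk_zero_one]
          have h2 : ((n.1.2 : bor (ZMod p)) : SpecialLinearGroup (Fin 2) (ZMod p)) *
              ((n⁻¹.1.2 : bor (ZMod p)) : SpecialLinearGroup (Fin 2) (ZMod p)) = 1 := by simp
          rw [h2, Matrix.SpecialLinearGroup.coe_one, one_mulVec, ← h.add _ hb _ (inv_mem hb),
            mul_inv_cancel, he1] }
  have hΓ1 : ∀ x : Γ, ((MonoidHom.fst _ _).comp Γ.subtype) x ∈ N := by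
    rintro ⟨_, b, hb, n, hn, rfl⟩
    exact mul_mem (h.RN (h.BR hb)) n.2.1
  have hΓ2 : Γ.map (MonoidHom.snd _ _) = (bor (ZMod p)).comap (qdLin (ZMod p)) := by
    apply le_antisymm
    · rintro _ ⟨_, ⟨b, hb, n, hn, rfl⟩, rfl⟩
      show qdLin _ (mk _ _) ∈ bor _
      rw [qdLin_mk]
      exact n.1.2.2
    · intro M hM
      obtain ⟨v, g, rfl⟩ := exists_mk M
      rw [mem_comap, qdLin_mk] at hM
      obtain ⟨b, hb, rfl⟩ := h.surj v
      obtain ⟨n, hn, hng⟩ := hN (le_normalizer_of_normal (mem_top (⟨g, hM⟩ : bor (ZMod p))))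
      refine ⟨_, ⟨b, hb, n, hn, rfl⟩, ?_⟩
      exact congrArg (fun x : bor (ZMod p) => mk (e b) x.1) hng
  have hinj : Function.Injective (((MonoidHom.fst _ _).comp Γ.subtype).codRestrict N hΓ1) := by
    rw [injective_iff_map_eq_one]
    rintro ⟨_, b, hb, n, hn, rfl⟩ h1
    have h2 : b * n.1.1 = 1 := congrArg Subtype.val h1
    have h3 : n.1.1 = b⁻¹ := eq_inv_of_mul_eq_one_right h2
    have h4 : (n.1.2 : SpecialLinearGroup (Fin 2) (ZMod p)) = 1 :=
      Act.unique h.surj n.2.2 (Act.of_mem h.add (h3 ▸ inv_mem hb))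
    have h5 : n * t * n⁻¹ * t⁻¹ ∈ S := mul_mem ((mem_normalizer_iff.mp hn t).mp ht) (inv_mem ht)
    have h6 : b⁻¹ * (t.1.1 * b * t.1.1⁻¹) = 1 := by
      obtain ⟨k, hk⟩ := hS ⟨_, h5⟩
      have h7 : (b⁻¹ * (t.1.1 * b * t.1.1⁻¹)) ^ 2 ^ k = 1 := by
        have := congrArg (fun x : S => x.1.1.1) hk
        simpa [h3, mul_assoc] using this
      obtain ⟨l, hl⟩ := h.pR ⟨_, h.BR (mul_mem (inv_mem hb) (t.2.2 b hb).1)⟩
      exact eq_one_of_sq_pow hp2 h7 (congrArg Subtype.val hl)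
    have h8 := (t.2.2 b hb).2
    rw [← inv_mul_eq_one.1 h6, (show t.1.2 = z from ht1)] at h8
    have h9 : e b = 0 := by
      have h10 : (2 : ZMod p) • e b = 0 := by
        rw [two_smul]
        nth_rewrite 1 [h8]
        simp [z, neg_mulVec]
      exact (smul_eq_zero.1 h10).resolve_left (two_ne_zero_of_charP hp2)
    exact Subtype.ext (Prod.ext h2 (by
      show Qd.mk _ _ = 1
      rw [h9, h4, mk_zero_one]))
  rw [fOver_eq, ← involves_congr_left (((bor (ZMod p)).comap (qdLin (ZMod p))).equivMapOfInjective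
    _ (qdOver (ZMod p)).subtype_injective), ← hΓ2]
  exact involves_trans (involves_map _ Γ) (involves_of_injective _ hinj)

theorem FC.exists_eigen [Finite G] {N D : Subgroup G} {lam : (ZMod p)ˣ} (h : FC N D lam)
    (hN : N ≤ 𝐍 D) (hD : D ≤ 𝐂 D) :
    ∃ z ∈ D, orderOf z = p ∧ ∃ τ ∈ N, τ * z * τ⁻¹ = z ^ (lam : ZMod p).val := by
  obtain ⟨R, B, τ, e, h⟩ := h
  have he1 : e 1 = 0 := by
    have := h.add 1 B.one_mem 1 B.one_mem
    rwa [mul_one, left_eq_add] at this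
  have hpow : ∀ x ∈ B, ∀ n : ℕ, e (x ^ n) = (n : ZMod p) • e x := fun x hx n => by
    induction n with
    | zero => rw [pow_zero, he1, Nat.cast_zero, zero_smul]
    | succ n ih => rw [pow_succ, h.add _ (pow_mem hx n) _ hx, ih, Nat.cast_succ, add_smul, one_smul]
  set m := (lam : ZMod p).val
  have hmem : ∀ x : (D ⊓ B : Subgroup G), τ * x * τ⁻¹ * ((x : G) ^ m)⁻¹ ∈ D ⊓ B := fun x =>
    mul_mem ⟨mem_normalizer_conj (hN h.τN) x.2.1, (h.actτ x x.2.2).1⟩ (inv_mem (pow_mem x.2 m))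
  let ψ : (D ⊓ B : Subgroup G) →* (D ⊓ B : Subgroup G) :=
    MonoidHom.mk' (fun x => ⟨_, hmem x⟩) fun x y => Subtype.ext (by
      have h1 : Commute (x : G) y := (hD x.2.1 y y.2.1).symm
      have h2 : Commute (τ * y * τ⁻¹ * ((y : G) ^ m)⁻¹) ((x : G) ^ m)⁻¹ :=
        (hD (hmem y).1 _ (inv_mem (pow_mem x.2.1 m))).symm
      show τ * (x * y) * τ⁻¹ * (((x : G) * y) ^ m)⁻¹ =
        τ * x * τ⁻¹ * ((x : G) ^ m)⁻¹ * (τ * y * τ⁻¹ * ((y : G) ^ m)⁻¹)
      rw [h1.mul_pow, mul_assoc (τ * x * τ⁻¹), ← h2.eq]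
      group)
  have hns : ¬ Function.Injective ψ := by
    intro hi
    obtain ⟨d, hd, hdB, hde⟩ := h.vec
    obtain ⟨x, hx⟩ := Finite.injective_iff_surjective.1 hi ⟨d, hd, hdB⟩
    have h1 : τ * x * τ⁻¹ = d * (x : G) ^ m := by
      rw [← (show τ * x * τ⁻¹ * ((x : G) ^ m)⁻¹ = d from congrArg Subtype.val hx)]; group
    have h2 := (h.actτ x x.2.2).2
    rw [h1, h.add _ hdB _ (pow_mem x.2.2 m), hpow _ x.2.2, hde, dg_mulVec,
      ZMod.natCast_zmod_val] at h2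
    have h3 : (1 : ZMod p) + lam * e x 0 = lam * e x 0 := congrFun h2 0
    exact one_ne_zero (add_eq_right.1 h3)
  rw [injective_iff_map_eq_one] at hns
  push Not at hns
  obtain ⟨x, hx, hx1⟩ := hns
  have hk : IsPGroup p ψ.ker := (((h.pR.to_le h.BR).to_le inf_le_right).to_subgroup _)
  obtain ⟨y, hy, hy1, hyp⟩ := TJ.exists_pow_eq_one_of_isPGroup hk
    (fun h0 => hx1 (by have : x ∈ ψ.ker := hx; rwa [h0] at this))
  refine ⟨y, y.2.1, ?_, τ, h.τN, mul_inv_eq_one.1 (congrArg Subtype.val (show ψ y = 1 from hy))⟩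
  rw [Subgroup.orderOf_coe]
  exact orderOf_eq_prime hyp hy1

theorem relIndex_eq [Finite G] {H : Subgroup G} {z τ : G} (hz : orderOf z = p) (hτ : τ ∈ H)
    {lam : (ZMod p)ˣ} (hl : ∀ u, u ∈ Submonoid.powers lam)
    (h : τ * z * τ⁻¹ = z ^ (lam : ZMod p).val) :
    (H ⊓ 𝐂 (zpowers z)).relIndex (H ⊓ 𝐍 (zpowers z)) = p - 1 := by
  have hτN : τ ∈ 𝐍 (zpowers z) := mem_normalizer_of_cj_le (by
    rw [cj_zpowers, h, zpowers_le]; exact pow_mem (mem_zpowers z) _)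
  let θ := conjAutOf (zpowers z) (H ⊓ 𝐍 (zpowers z)) inf_le_right
  have h1 : (H ⊓ 𝐂 (zpowers z)).relIndex (H ⊓ 𝐍 (zpowers z)) = Nat.card θ.range := by
    rw [← Subgroup.index_ker, ker_conjAutOf, relIndex]
    congr 1
    ext x
    simp only [mem_subgroupOf, mem_inf, and_iff_right_iff_imp]
    exact fun _ => x.2.1
  have h2 : Nat.card (MulAut (zpowers z)) = p - 1 := by
    rw [IsCyclic.card_mulAut, Nat.card_zpowers, hz, Nat.totient_prime hp.out]
  have h3 : ∀ i : ℕ, τ ^ i * z * (τ ^ i)⁻¹ = z ^ (lam : ZMod p).val ^ i := by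
    intro i
    induction i with
    | zero => simp
    | succ i ih =>
      rw [pow_succ', show τ * τ ^ i * z * (τ * τ ^ i)⁻¹ = τ * (τ ^ i * z * (τ ^ i)⁻¹) * τ⁻¹ by group,
        ih, ← conj_pow, h, ← pow_mul, ← pow_succ']
  have h4 : orderOf lam ∣ orderOf (θ ⟨τ, hτ, hτN⟩) := by
    rw [orderOf_dvd_iff_pow_eq_one]
    set i := orderOf (θ ⟨τ, hτ, hτN⟩)
    have h5 : θ (⟨τ, hτ, hτN⟩ ^ i) = 1 := by rw [map_pow, pow_orderOf_eq_one]
    have h6 := congrArg (fun f : MulAut (zpowers z) => (f ⟨z, mem_zpowers z⟩ : G)) h5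
    simp only [θ, coe_conjAutOf_apply, SubmonoidClass.coe_pow, MulAut.one_apply] at h6
    rw [h3, ← pow_one z, ← pow_mul, one_mul, pow_eq_pow_iff_modEq, hz,
      ← ZMod.natCast_eq_natCast_iff, Nat.cast_pow, ZMod.natCast_zmod_val, Nat.cast_one] at h6
    exact Units.ext (by rw [Units.val_pow_eq_pow_val, h6, Units.val_one])
  have h7 : orderOf lam = p - 1 := by
    rw [orderOf_eq_card_of_forall_mem_powers hl, Nat.card_eq_fintype_card, ZMod.card_units]
  rw [h1]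
  refine Nat.dvd_antisymm (h2 ▸ card_subgroup_dvd_card _) (h7 ▸ h4.trans ?_)
  exact Subgroup.orderOf_dvd_natCard _ ⟨_, rfl⟩

end Cfsg.Lib.ZJF
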