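import Cfsg.Agent.ZJF.SL

/-!
The linear algebra of two quadratic elements with complementary fixed spaces.
-/

set_option autoImplicit false

open Subgroup Matrix Cfsg.Lib.Trans Cfsg.Lib.Trans.Quad Cfsg.Lib.Trans.Qd

namespace Cfsg.Lib.ZJF

variable {p : ℕ} [hp : Fact p.Prime] {V : Type*} [AddCommGroup V] [Module (ZMod p) V]
  {H : Type*} [Group H]

/-- A plane section of the module on which `R` acts unitriangularly and `τ` diagonally. -/
structure LD (ρ : H →* Module.End (ZMod p) V) (M : Subgroup H) (D : Submodule (ZMod p) V)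
    (lam : (ZMod p)ˣ) (R : Subgroup H) (τ : H) (V' : Submodule (ZMod p) V)
    (e : V → Fin 2 → ZMod p) : Prop where
  RM : R ≤ M
  pR : IsPGroup p R
  τM : τ ∈ M
  τR : τ ∈ normalizer (R : Set H)
  add : ∀ v ∈ V', ∀ w ∈ V', e (v + w) = e v + e w
  surj : ∀ y, ∃ v ∈ V', e v = y
  actR : ∀ r ∈ R, ∃ c : ZMod p, ∀ v ∈ V', ρ r v ∈ V' ∧ e (ρ r v) = (upT c).1 *ᵥ e v
  nt : ∃ r ∈ R, ∀ v ∈ V', e (ρ r v) = (upT 1).1 *ᵥ e v
  actτ : ∀ v ∈ V', ρ τ v ∈ V' ∧ e (ρ τ v) = (dg lam).1 *ᵥ e v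
  vec : ∃ d ∈ D, d ∈ V' ∧ e d = ![1, 0]

theorem exists_eq_of_injOn [Finite V] {W : Submodule (ZMod p) V} (f : Module.End (ZMod p) V)
    (h1 : ∀ v ∈ W, f v ∈ W) (h2 : ∀ v ∈ W, f v = 0 → v = 0) {w : V} (hw : w ∈ W) :
    ∃ v ∈ W, f v = w := by
  have hi : Function.Injective (f.restrict h1) := by
    rw [injective_iff_map_eq_zero]
    intro v hv
    exact Subtype.ext (h2 v v.2 (congrArg Subtype.val hv))
  obtain ⟨v, hv⟩ := Finite.injective_iff_surjective.1 hi ⟨w, hw⟩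
  exact ⟨v, v.2, congrArg Subtype.val hv⟩

/-- The plane spanned by an eigenvector of the torus and a second eigenvector. -/
theorem exists_plane {K : Type*} [Field K] [Algebra (ZMod p) K] {l k s : K} (hl : l ≠ 0)
    (lam : (ZMod p)ˣ) {t : SpecialLinearGroup (Fin 2) K}
    (ht : ∀ v : Fin 2 → K, t.1 *ᵥ v =
      ![algebraMap (ZMod p) K lam * v 0 + s * v 1, (algebraMap (ZMod p) K lam)⁻¹ * v 1])
    (hs : lam * lam = 1 → s = 0) :
    ∃ κ : (Fin 2 → ZMod p) →ₗ[ZMod p] (Fin 2 → K), κ ![1, 0] = ![k, 0] ∧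
      (∀ (c : ZMod p) u, (upT (algebraMap (ZMod p) K c * l)).1 *ᵥ κ u = κ ((upT c).1 *ᵥ u)) ∧
      ∀ u, t.1 *ᵥ κ u = κ ((dg lam).1 *ᵥ u) := by
  set μ := algebraMap (ZMod p) K lam with hμ
  have hμ0 : μ ≠ 0 := (map_ne_zero _).2 lam.ne_zero
  obtain ⟨z, hz⟩ : ∃ z : K, (μ - μ⁻¹) * z + s * (k / l) = 0 := by
    by_cases h : μ - μ⁻¹ = 0
    · refine ⟨0, ?_⟩
      rw [hs, mul_zero, zero_mul, add_zero]
      apply Units.ext
      apply (algebraMap (ZMod p) K).injective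
      rw [Units.val_mul, map_mul, ← hμ, Units.val_one, map_one]
      nth_rewrite 2 [sub_eq_zero.1 h]
      exact mul_inv_cancel₀ hμ0
    · exact ⟨-(s * (k / l)) / (μ - μ⁻¹), by rw [mul_div_cancel₀ _ h, neg_add_cancel]⟩
  let κ : (Fin 2 → ZMod p) →ₗ[ZMod p] (Fin 2 → K) :=
    { toFun := fun u => u 0 • ![k, 0] + u 1 • ![z, k / l]
      map_add' := fun u u' => by simp only [Pi.add_apply]; module
      map_smul' := fun c u => by simp only [Pi.smul_apply, smul_eq_mul, RingHom.id_apply]; module }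
  have h0 : ∀ u, κ u 0 = algebraMap (ZMod p) K (u 0) * k + algebraMap (ZMod p) K (u 1) * z :=
    fun u => by
      show u 0 • k + u 1 • z = _
      rw [Algebra.smul_def, Algebra.smul_def]
  have h1 : ∀ u, κ u 1 = algebraMap (ZMod p) K (u 1) * (k / l) := fun u => by
    show u 0 • (0 : K) + u 1 • (k / l) = _
    rw [smul_zero, zero_add, Algebra.smul_def]
  have ext2 : ∀ u u' : Fin 2 → K, u 0 = u' 0 → u 1 = u' 1 → u = u' := fun u u' a b => by
    ext i; fin_cases i; exacts [a, b]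
  refine ⟨κ, ext2 _ _ ?_ ?_, fun c u => ext2 _ _ ?_ ?_, fun u => ext2 _ _ ?_ ?_⟩
  · rw [h0]; simp only [cons_val_zero, cons_val_one, map_one, map_zero]; ring
  · rw [h1]; simp only [cons_val_zero, cons_val_one, map_zero]; ring
  · rw [upT_mulVec, upT_mulVec, h0]
    simp only [cons_val_zero, cons_val_one, h0, h1, map_add, map_mul]
    field_simp
    ring
  · rw [upT_mulVec, upT_mulVec, h1]
    simp only [cons_val_zero, cons_val_one, h1]
  · rw [ht, dg_mulVec, h0]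
    simp only [cons_val_zero, cons_val_one, h0, h1, map_mul, map_inv₀, ← hμ]
    linear_combination (algebraMap (ZMod p) K (u 1)) * hz
  · rw [ht, dg_mulVec, h1]
    simp only [cons_val_zero, cons_val_one, h1, map_mul, map_inv₀, ← hμ]
    ring

theorem torus_mem_normalizer {K : Type*} [Field K] [Finite K] [Algebra (ZMod p) K] {l s : K}
    (lam : (ZMod p)ˣ) {t : SpecialLinearGroup (Fin 2) K}
    (ht : ∀ v : Fin 2 → K, t.1 *ᵥ v =
      ![algebraMap (ZMod p) K lam * v 0 + s * v 1, (algebraMap (ZMod p) K lam)⁻¹ * v 1]) :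
    t ∈ normalizer ((zpowers (upT l) : Subgroup _) : Set (SpecialLinearGroup (Fin 2) K)) := by
  set μ := algebraMap (ZMod p) K lam with hμ
  have hμ0 : μ ≠ 0 := (map_ne_zero _).2 lam.ne_zero
  have h1 : t * upT l = upT (μ * μ * l) * t := by
    apply natRep_injective
    refine LinearMap.ext fun v => ?_
    rw [natRep_apply, natRep_apply, mul_mulVec, mul_mulVec, ht, ht, upT_mulVec, upT_mulVec]
    ext i
    fin_cases i
    · simp only [cons_val_zero, cons_val_one, Fin.zero_eta]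
      field_simp
      ring
    · simp only [cons_val_zero, cons_val_one, Fin.mk_one]
  apply mem_normalizer_of_cj_le
  rw [cj_zpowers, h1, mul_inv_cancel_right, zpowers_le]
  refine ⟨(((lam : ZMod p) * lam).val : ℕ), ?_⟩
  show upT l ^ ((((lam : ZMod p) * lam).val : ℕ) : ℤ) = _
  rw [zpow_natCast, upT_pow, hμ, ← map_mul, ← map_natCast (algebraMap (ZMod p) K),
    ZMod.natCast_zmod_val]

/-- lifting the torus element to the normalizer of a Sylow subgroup containing `a`. -/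
theorem exists_lift [Finite H] {X : Type*} [Group X] (φ : H →* X) {a t₀ : H}
    (ha : IsPGroup p (zpowers a)) (ht : φ t₀ ∈ normalizer ((zpowers (φ a) : Subgroup X) : Set X)) :
    ∃ R : Subgroup H, IsPGroup p R ∧ a ∈ R ∧ (∀ r ∈ R, φ r ∈ zpowers (φ a)) ∧
      ∃ τ ∈ normalizer (R : Set H), φ τ = φ t₀ := by
  have hP : IsPGroup p (zpowers (φ a)) := by
    rw [← MonoidHom.map_zpowers]; exact ha.map φ
  obtain ⟨R, hR, haR⟩ := exists_isSylowIn_ge (H := (zpowers (φ a)).comap φ) ha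
    (zpowers_le.2 (mem_zpowers (φ a)))
  obtain ⟨n, hn, k, hk, hnk⟩ := hR.frattini' (le_normalizer_comap φ ht)
  have h1 : zpowers (φ a) ≤ R.map φ := zpowers_le.2 ⟨a, haR (mem_zpowers a), rfl⟩
  obtain ⟨r, hr, hrk⟩ := h1 hk
  refine ⟨R, hR.isPGroup, haR (mem_zpowers a), fun r hr => hR.le hr, n * r,
    mul_mem hn (le_normalizer hr), ?_⟩
  rw [hnk, map_mul, map_mul, hrk]

end Cfsg.Lib.ZJF
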