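import Cfsg.Agent.ZJF.Lin0

/-!
The plane section for a group generated by two quadratic elements.
-/

set_option autoImplicit false

open Subgroup Matrix Cfsg.Lib.Trans Cfsg.Lib.Trans.Quad Cfsg.Lib.Trans.Qd

namespace Cfsg.Lib.ZJF

variable {p : ℕ} [hp : Fact p.Prime] {V : Type*} [AddCommGroup V] [Module (ZMod p) V]
  {H : Type*} [Group H]

/-- two quadratic elements with complementary fixed spaces. -/
structure QP (ρ : H →* Module.End (ZMod p) V) (a b : H) (U₁ U₂ : Submodule (ZMod p) V) : Prop where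
  gen : closure {a, b} = ⊤
  hx : ∀ v, ρ a v - v ∈ U₁
  hy : ∀ v, ρ b v - v ∈ U₂
  hx1 : ∀ v ∈ U₁, ρ a v = v
  hy2 : ∀ v ∈ U₂, ρ b v = v
  hy1 : ∀ v ∈ U₁, ρ b v = v → v = 0
  hx2 : ∀ v ∈ U₂, ρ a v = v → v = 0

namespace QP

variable {ρ : H →* Module.End (ZMod p) V} {a b : H} {U₁ U₂ : Submodule (ZMod p) V}

theorem sub_mem (h : QP ρ a b U₁ U₂) (g : H) : ∀ v, ρ g v - v ∈ U₁ ⊔ U₂ := by
  have hg : g ∈ closure {a, b} := h.gen ▸ mem_top g
  induction hg using closure_induction with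
  | mem x hx =>
    intro v
    rcases hx with rfl | rfl
    exacts [Submodule.mem_sup_left (h.hx v), Submodule.mem_sup_right (h.hy v)]
  | one => intro v; simp
  | mul x y _ _ hx hy =>
    intro v
    have := add_mem (hx (ρ y v)) (hy v)
    rwa [sub_add_sub_cancel, ← Module.End.mul_apply, ← map_mul] at this
  | inv x _ hx =>
    intro v
    have := neg_mem (hx (ρ x⁻¹ v))
    rwa [← Module.End.mul_apply, ← map_mul, mul_inv_cancel, map_one, Module.End.one_apply,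
      neg_sub] at this

theorem mem_sup (h : QP ρ a b U₁ U₂) (g : H) {v : V} (hv : v ∈ U₁ ⊔ U₂) : ρ g v ∈ U₁ ⊔ U₂ := by
  have := add_mem (h.sub_mem g v) hv
  rwa [sub_add_cancel] at this

theorem mem_left (h : QP ρ a b U₁ U₂) {v : V} (hv : v ∈ U₁ ⊔ U₂) (ha : ρ a v = v) : v ∈ U₁ := by
  obtain ⟨u₁, h1, u₂, h2, rfl⟩ := Submodule.mem_sup.1 hv
  rw [map_add, h.hx1 u₁ h1, add_right_inj] at ha
  rwa [h.hx2 u₂ h2 ha, add_zero]

theorem eq_zero (h : QP ρ a b U₁ U₂) {v : V} (hv : v ∈ U₁ ⊔ U₂) (hab : ρ (a * b) v = v) :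
    v = 0 := by
  obtain ⟨u₁, h1, u₂, h2, rfl⟩ := Submodule.mem_sup.1 hv
  rw [map_mul, Module.End.mul_apply, map_add, h.hy2 u₂ h2] at hab
  have h3 : ρ b u₁ - u₁ ∈ U₁ := by
    have := neg_mem (h.hx (ρ b u₁ + u₂))
    rw [hab] at this
    convert this using 1
    abel
  have h4 := h.hy1 u₁ h1 (sub_eq_zero.1 (h.hy1 _ h3 (h.hy2 _ (h.hy u₁))))
  rw [h4, map_zero, zero_add] at hab
  rw [h4, zero_add, h.hx2 u₂ h2 hab]

theorem exists_eq [Finite V] (h : QP ρ a b U₁ U₂) {W : Submodule (ZMod p) V}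
    (hW : ∀ g, ∀ v ∈ W, ρ g v ∈ W) {d : V} (hd : d ∈ W) (hd1 : d ∈ U₁) :
    ∃ w ∈ W, ρ a w - w = d := by
  obtain ⟨v, hv, hvd⟩ := exists_eq_of_injOn (W := W ⊓ U₁) ((ρ a - 1) * (ρ b - 1))
    (fun v hv => ⟨W.sub_mem (hW _ _ (W.sub_mem (hW _ _ hv.1) hv.1)) (W.sub_mem (hW _ _ hv.1) hv.1),
      h.hx _⟩)
    (fun v hv h0 => h.hy1 v hv.2 (sub_eq_zero.1 (h.hx2 _ (h.hy v) (sub_eq_zero.1 h0)))) ⟨hd, hd1⟩
  exact ⟨ρ b v - v, W.sub_mem (hW _ _ hv.1) hv.1, hvd⟩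

theorem not_nilp [Finite V] (h : QP ρ a b U₁ U₂) {W : Submodule (ZMod p) V} (hWU : W ≤ U₁ ⊔ U₂)
    (hW : ∀ g, W ≤ W.comap (ρ g)) {d : V} (hd : d ∈ U₁ ⊔ U₂) (hdW : d ∉ W) :
    ¬ IsNilpotent (Representation.quotient ρ W hW (a * b) - 1) := by
  rintro ⟨n, hn⟩
  have key : ∀ n : ℕ, ∀ v ∈ U₁ ⊔ U₂,
      ((Representation.quotient ρ W hW (a * b) - 1) ^ n) (W.mkQ v) = 0 → v ∈ W := by
    intro n
    induction n with
    | zero => intro v _ h0; simpa using h0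
    | succ n ih =>
      intro v hv h0
      rw [pow_succ, Module.End.mul_apply] at h0
      have h1 := ih (ρ (a * b) v - v) (h.sub_mem _ v) h0
      obtain ⟨w, hw, hwv⟩ := exists_eq_of_injOn (W := W) (ρ (a * b) - 1)
        (fun v hv => W.sub_mem (hW _ hv) hv)
        (fun v hv h0 => h.eq_zero (hWU hv) (sub_eq_zero.1 h0)) h1
      have h2 : v - w = 0 := h.eq_zero (Submodule.sub_mem _ hv (hWU hw)) (by
        rw [map_sub, sub_eq_sub_iff_sub_eq_sub]; exact hwv.symm)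
      rwa [sub_eq_zero.1 h2]
  exact hdW (key n d hd (by rw [hn]; rfl))

end QP

theorem lin0 [Finite H] [Finite V] (hp2 : p ≠ 2) {ρ : H →* Module.End (ZMod p) V} {a b : H}
    {U₁ U₂ D : Submodule (ZMod p) V} (h : QP ρ a b U₁ U₂) (ha : IsPGroup p (zpowers a))
    {d₀ : V} (hd₀ : d₀ ∈ D) (hd₀1 : d₀ ∈ U₁) (hd₀0 : d₀ ≠ 0) (hDa : ∀ v ∈ D, ρ a v ∈ D)
    {M : Subgroup H} (hM : ∀ X : Submodule (ZMod p) V, X ≠ ⊥ → X ≤ U₁ →
      ∀ g, (∀ v ∈ X, ρ g v ∈ X) → g ∈ M) (lam : (ZMod p)ˣ) :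
    ∃ R τ V' e, LD ρ M D lam R τ V' e := by
  classical
  obtain ⟨W, ⟨hWU, hW, hWD⟩, hmax⟩ := (wellFounded_gt (α := Submodule (ZMod p) V)).has_min
    {W | W ≤ U₁ ⊔ U₂ ∧ (∀ g, W ≤ W.comap (ρ g)) ∧ W ⊓ D = ⊥} ⟨⊥, bot_le, fun _ => bot_le, bot_inf_eq _⟩
  have hWD' : ∀ v ∈ W, v ∈ D → v = 0 := fun v h1 h2 => by
    have : v ∈ W ⊓ D := ⟨h1, h2⟩
    rwa [hWD] at this
  let ρ' := Representation.quotient ρ W hW
  have hρ' : ∀ g v, ρ' g (W.mkQ v) = W.mkQ (ρ g v) := fun g v => rfl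
  have hq : ∀ (x : H) (U : Submodule (ZMod p) V), (∀ v, ρ x v - v ∈ U) → (∀ v ∈ U, ρ x v = v) →
      (ρ' x - 1) * (ρ' x - 1) = 0 := fun x U h1 h2 => by
    refine LinearMap.ext fun y => ?_
    obtain ⟨v, rfl⟩ := W.mkQ_surjective y
    show W.mkQ (ρ x (ρ x v - v)) - W.mkQ (ρ x v - v) = 0
    rw [h2 _ (h1 v), sub_self]
  obtain ⟨n, -, l, hl, φ, hφa, hφb, ι, hι, hιφ⟩ := exists_hom_galois_plane ρ' h.gen
    (hq a U₁ h.hx h.hx1) (hq b U₂ h.hy h.hy2)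
    (h.not_nilp hWU hW (Submodule.mem_sup_left hd₀1) fun h1 => hd₀0 (hWD' _ h1 hd₀))
  let K := GaloisField p n
  obtain ⟨lm, hlm0, hlm⟩ := exists_descent (x := ι ![1, 0])
    (fun h0 => by simpa using hι (h0.trans (map_zero ι).symm))
  let f : (Fin 2 → K) →ₗ[ZMod p] V ⧸ W := lm ∘ₗ (ι.restrictScalars (ZMod p))
  have hf : ∀ g u, ρ' g (f u) = f ((φ g).1 *ᵥ u) := fun g u => by
    show ρ' g (lm (ι u)) = lm (ι _)
    rw [← hlm, hιφ]
  -- the preimage of the image of `f` meets `D`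
  let W' := (LinearMap.range f).comap W.mkQ
  have hW' : ∀ g, ∀ v ∈ W', ρ g v ∈ W' := by
    rintro g v ⟨u, hu⟩
    exact ⟨_, by rw [← hf, hu, hρ']⟩
  have hWW' : W ≤ W' := fun v hv => ⟨0, by
    rw [map_zero, eq_comm]; exact (Submodule.Quotient.mk_eq_zero W).2 hv⟩
  have hW'U : W' ≤ U₁ ⊔ U₂ := by
    rintro v ⟨u, hu⟩
    obtain ⟨v₁, h1⟩ := W.mkQ_surjective (f ![0, u 0 / l])
    obtain ⟨v₂, h2⟩ := W.mkQ_surjective (f ![u 1, 0])
    have h3 : W.mkQ (v - ((ρ a v₁ - v₁) + (ρ b v₂ - v₂))) = 0 := by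
      rw [map_sub, map_add, map_sub, map_sub, ← hρ', ← hρ', h1, h2, hf, hf, ← hu, hφa, hφb,
        upT_mulVec, loT_mulVec, ← map_sub, ← map_sub, ← map_add, ← map_sub, ← map_zero f]
      congr 1
      ext i
      fin_cases i
      · simp only [cons_val_zero, cons_val_one, Fin.zero_eta, Pi.sub_apply, Pi.add_apply,
          Pi.zero_apply]
        rw [mul_div_cancel₀ _ hl]
        ring
      · simp only [cons_val_zero, cons_val_one, Fin.mk_one, Pi.sub_apply, Pi.add_apply,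
          Pi.zero_apply]
        ring
    have h4 := add_mem (hWU ((Submodule.Quotient.mk_eq_zero W).1 h3))
      (add_mem (h.sub_mem a v₁) (h.sub_mem b v₂))
    rwa [sub_add_cancel] at h4
  have hW'D : W' ⊓ D ≠ ⊥ := by
    intro h0
    refine hmax W' ⟨hW'U, fun g v hv => hW' g v hv, h0⟩ (lt_of_le_of_ne hWW' fun e => ?_)
    obtain ⟨v, hv⟩ := W.mkQ_surjective (f ![1, 0])
    have h1 : v ∈ W := e ▸ (⟨_, hv.symm⟩ : v ∈ W')
    exact hlm0 (hv.symm.trans ((Submodule.Quotient.mk_eq_zero W).2 h1))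
  obtain ⟨d, hdW', hdD, hd1, hd0⟩ : ∃ d ∈ W', d ∈ D ∧ d ∈ U₁ ∧ d ≠ 0 := by
    obtain ⟨d, ⟨h1, h2⟩, h3⟩ := (Submodule.ne_bot_iff _).1 hW'D
    by_cases h4 : ρ a d = d
    · exact ⟨d, h1, h2, h.mem_left (hW'U h1) h4, h3⟩
    · exact ⟨_, W'.sub_mem (hW' _ _ h1) h1, D.sub_mem (hDa _ h2) h2, h.hx d, sub_ne_zero.2 h4⟩
  obtain ⟨k, hk⟩ : ∃ k : K, f ![k, 0] = W.mkQ d := by
    obtain ⟨w, ⟨u, hu⟩, hw⟩ := h.exists_eq hW' hdW' hd1
    refine ⟨l * u 1, ?_⟩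
    rw [← hw, map_sub, ← hρ', ← hu, hf, hφa, upT_mulVec, ← map_sub]
    congr 1
    ext i
    fin_cases i <;> simp
  have hk0 : f ![k, 0] ≠ 0 := fun h0 =>
    hd0 (hWD' d ((Submodule.Quotient.mk_eq_zero W).1 (hk.symm.trans h0)) hdD)
  -- the torus element
  obtain ⟨t, ht, s, hts, hs⟩ := exists_torus hp2 hl lam
  rw [← range_eq_transvPair h.gen hφa hφb] at ht
  obtain ⟨t₀, rfl⟩ := ht
  obtain ⟨R, hR, haR, hRa, τ, hτR, hτ⟩ := exists_lift φ ha (t₀ := t₀)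
    (hφa ▸ torus_mem_normalizer lam hts)
  rw [← hτ] at hts
  obtain ⟨κ, hκ0, hκu, hκt⟩ := exists_plane (k := k) hl lam hts hs
  -- `R` and `τ` lie in `M`
  let X : Submodule (ZMod p) V := (U₁ ⊔ U₂) ⊓ ⨅ r : R, LinearMap.ker (ρ r - 1)
  have hX : ∀ v, v ∈ X ↔ v ∈ U₁ ⊔ U₂ ∧ ∀ r ∈ R, ρ r v = v := fun v => by
    simp only [X, Submodule.mem_inf, Submodule.mem_iInf, LinearMap.mem_ker, LinearMap.sub_apply,
      Module.End.one_apply, sub_eq_zero, Subtype.forall]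
  have hX0 : X ≠ ⊥ := by
    obtain ⟨v, hv, hv0, hvR⟩ := exists_fixed_vec ρ hR (X := U₁ ⊔ U₂)
      (fun r _ v hv => h.mem_sup r hv) (Submodule.mem_sup_left hd₀1) hd₀0
      (by rw [← Nat.cast_smul_eq_nsmul (ZMod p), ZMod.natCast_self, zero_smul])
    exact (Submodule.ne_bot_iff _).2 ⟨v, (hX v).2 ⟨hv, hvR⟩, hv0⟩
  have hNM : normalizer (R : Set H) ≤ M := fun g hg =>
    hM X hX0 (fun v hv => h.mem_left ((hX v).1 hv).1 (((hX v).1 hv).2 a haR)) g fun v hv =>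
      (hX _).2 ⟨h.mem_sup g ((hX v).1 hv).1, fun r hr => by
        have := ((hX v).1 hv).2 _ (mem_normalizer_conj' hg hr)
        rw [← Module.End.mul_apply, ← map_mul, show r * g = g * (g⁻¹ * r * g) by group, map_mul,
          Module.End.mul_apply, this]⟩
  -- the plane
  let j := f ∘ₗ κ
  have hja : ∀ (c : ZMod p) g, φ g = upT (algebraMap (ZMod p) K c * l) →
      ∀ u, ρ' g (j u) = j ((upT c).1 *ᵥ u) := fun c g hg u => by
    show ρ' g (f (κ u)) = f (κ _)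
    rw [hf, hg, hκu]
  have hja1 := hja 1 a (by rw [map_one, one_mul, hφa])
  have hj0 : j ![1, 0] ≠ 0 := by
    show f (κ _) ≠ 0
    rwa [hκ0]
  have hj : Function.Injective j := by
    rw [injective_iff_map_eq_zero]
    intro u hu
    have h1 := hja1 u
    rw [hu, map_zero, upT_mulVec] at h1
    have h2 : u 1 • j ![1, 0] = 0 := by
      have h5 : ![u 0 + 1 * u 1, u 1] = u + u 1 • ![1, 0] := by
        ext i
        fin_cases i <;> simp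
      rw [h5, map_add, hu, zero_add, map_smul] at h1
      exact h1.symm
    have h3 : u 1 = 0 := (smul_eq_zero.1 h2).resolve_right hj0
    have h4 : u = u 0 • ![1, 0] := by
      ext i
      fin_cases i <;> simp [h3]
    rw [h4, map_smul] at hu
    rw [h4, (smul_eq_zero.1 hu).resolve_right hj0, zero_smul]
  let V' := (LinearMap.range j).comap W.mkQ
  let e : V → Fin 2 → ZMod p := fun v => Function.invFun j (W.mkQ v)
  have he : ∀ v ∈ V', j (e v) = W.mkQ v := fun v hv => Function.invFun_eq hv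
  have hact : ∀ g (m : SpecialLinearGroup (Fin 2) (ZMod p)), (∀ u, ρ' g (j u) = j (m.1 *ᵥ u)) →
      ∀ v ∈ V', ρ g v ∈ V' ∧ e (ρ g v) = m.1 *ᵥ e v := fun g m hg v hv => by
    have h1 : j (m.1 *ᵥ e v) = W.mkQ (ρ g v) := by rw [← hg, he v hv, hρ']
    have h2 : ρ g v ∈ V' := ⟨_, h1⟩
    exact ⟨h2, hj (by rw [he _ h2, h1])⟩
  refine ⟨R, τ, V', e, le_normalizer.trans hNM, hR, hNM hτR, hτR, fun v hv w hw => hj ?_,
    fun y => ?_, fun r hr => ?_, ⟨a, haR, fun v hv => (hact a _ hja1 v hv).2⟩,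
    hact τ _ fun u => ?_, d, hdD, ⟨![1, 0], ?_⟩, hj ?_⟩
  · rw [map_add, he _ (V'.add_mem hv hw), he v hv, he w hw, map_add]
  · obtain ⟨v, hv⟩ := W.mkQ_surjective (j y)
    have h1 : v ∈ V' := ⟨y, hv.symm⟩
    exact ⟨v, h1, hj (by rw [he v h1, hv])⟩
  · obtain ⟨m, hm⟩ := (mem_powers_iff_mem_zpowers.2 (hRa r hr) : φ r ∈ Submonoid.powers (φ a))
    refine ⟨m, hact r _ (hja m r ?_)⟩
    rw [← hm, map_natCast, hφa]
    exact upT_pow l m
  · show ρ' τ (f (κ u)) = f (κ _)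
    rw [hf, hκt]
  · show f (κ _) = _
    rw [hκ0, hk]
  · have h1 : j ![1, 0] = W.mkQ d := by
      show f (κ _) = _
      rw [hκ0, hk]
    rw [he d ⟨_, h1⟩, h1]

end Cfsg.Lib.ZJF
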