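import Cfsg.Agent.ZJF.Lin1

/-!
The plane section for a group with a quadratic subgroup lying in a unique maximal subgroup.
-/

set_option autoImplicit false

open Subgroup Matrix Cfsg.Lib.Trans Cfsg.Lib.Trans.Quad Cfsg.Lib.Trans.Qd

namespace Cfsg.Lib.ZJF

variable {p : ℕ} [hp : Fact p.Prime] {V : Type*} [AddCommGroup V] [Module (ZMod p) V]
  {K : Type*} [Group K]

/-- the stabilizer of a vector. -/
def stabV (ρ : K →* Module.End (ZMod p) V) (v : V) : Subgroup K where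
  carrier := {k | ρ k v = v}
  one_mem' := by simp
  mul_mem' := fun {a b} ha hb => by
    show ρ (a * b) v = v
    rw [map_mul, Module.End.mul_apply, hb, ha]
  inv_mem' := fun {a} ha => by
    show ρ a⁻¹ v = v
    conv_lhs => rw [← (show ρ a v = v from ha)]
    rw [← Module.End.mul_apply, ← map_mul, inv_mul_cancel, map_one, Module.End.one_apply]

/-- the stabilizer of a submodule. -/
def stabS [Finite K] (ρ : K →* Module.End (ZMod p) V) (X : Submodule (ZMod p) V) : Subgroup K where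
  carrier := {k | ∀ v ∈ X, ρ k v ∈ X}
  one_mem' := by simp
  mul_mem' := fun {a b} ha hb v hv => by
    rw [map_mul, Module.End.mul_apply]; exact ha _ (hb v hv)
  inv_mem' := fun {a} ha => by
    have h1 : ∀ n : ℕ, ∀ v ∈ X, ρ (a ^ n) v ∈ X := by
      intro n
      induction n with
      | zero => simp
      | succ n ih =>
        intro v hv
        rw [pow_succ, map_mul, Module.End.mul_apply]; exact ih _ (ha v hv)
    obtain ⟨n, hn⟩ := (mem_powers_iff_mem_zpowers.2 (inv_mem (mem_zpowers a)) :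
      a⁻¹ ∈ Submonoid.powers a)
    exact hn ▸ h1 n

theorem LD.map_subtype {ρ : K →* Module.End (ZMod p) V} {H M : Subgroup K}
    {D : Submodule (ZMod p) V} {lam : (ZMod p)ˣ} {R : Subgroup H} {τ : H}
    {V' : Submodule (ZMod p) V} {e : V → Fin 2 → ZMod p}
    (h : LD (ρ.comp H.subtype) (M.subgroupOf H) D lam R τ V' e) :
    LD ρ M D lam (R.map H.subtype) τ V' e where
  RM := by rintro _ ⟨r, hr, rfl⟩; exact h.RM hr
  pR := h.pR.map _
  τM := h.τM
  τR := le_normalizer_map _ ⟨τ, h.τR, rfl⟩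
  add := h.add
  surj := h.surj
  actR := by rintro _ ⟨r, hr, rfl⟩; exact h.actR r hr
  nt := by obtain ⟨r, hr, h1⟩ := h.nt; exact ⟨r, ⟨r, hr, rfl⟩, h1⟩
  actτ := h.actτ
  vec := h.vec

theorem LD.of_quotient {ρ : K →* Module.End (ZMod p) V} {M : Subgroup K}
    {W D : Submodule (ZMod p) V} (hW : ∀ g, W ≤ W.comap (ρ g)) {lam : (ZMod p)ˣ} {R : Subgroup K}
    {τ : K} {V' : Submodule (ZMod p) (V ⧸ W)} {e : V ⧸ W → Fin 2 → ZMod p}
    (h : LD (Representation.quotient ρ W hW) M (D.map W.mkQ) lam R τ V' e) :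
    LD ρ M D lam R τ (V'.comap W.mkQ) (fun v => e (W.mkQ v)) where
  RM := h.RM
  pR := h.pR
  τM := h.τM
  τR := h.τR
  add := fun v hv w hw => by rw [map_add]; exact h.add _ hv _ hw
  surj := fun y => by
    obtain ⟨v, hv, rfl⟩ := h.surj y
    obtain ⟨v, rfl⟩ := W.mkQ_surjective v
    exact ⟨v, hv, rfl⟩
  actR := fun r hr => by
    obtain ⟨c, hc⟩ := h.actR r hr
    exact ⟨c, fun v hv => hc _ hv⟩
  nt := by
    obtain ⟨r, hr, h1⟩ := h.nt
    exact ⟨r, hr, fun v hv => h1 _ hv⟩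
  actτ := fun v hv => h.actτ _ hv
  vec := by
    obtain ⟨_, ⟨d, hd, rfl⟩, h1, h2⟩ := h.vec
    exact ⟨d, hd, h1, h2⟩

/-- `Q` lies in the unique maximal subgroup `M`, no conjugate by an element outside `M` does. -/
structure UQ (p : ℕ) (Q M : Subgroup K) : Prop where
  le : Q ≤ M
  ne : M ≠ ⊤
  pQ : IsPGroup p Q
  uniq : ∀ L, Q ≤ L → L ≠ ⊤ → L ≤ M
  ncj : ∀ g ∉ M, ¬ cj g Q ≤ M

theorem lin1 [Finite K] [Finite V] (hp2 : p ≠ 2) {ρ : K →* Module.End (ZMod p) V}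
    {Q M : Subgroup K} (h : UQ p Q M)
    (hquad : ∀ a ∈ Q, ∀ b ∈ Q, ∀ v, ρ a (ρ b v - v) = ρ b v - v)
    (hfix : ∀ v, (∀ k, ρ k v = v) → v = 0) {D : Submodule (ZMod p) V} (hD : D ≠ ⊥)
    (hDM : ∀ m ∈ M, ∀ v ∈ D, ρ m v ∈ D) (lam : (ZMod p)ˣ) :
    ∃ R τ V' e, LD ρ M D lam R τ V' e := by
  have key : ∀ v, (∀ a ∈ Q, ρ a v = v) → ∀ k ∉ M, ρ k v = v → v = 0 := fun v hv k hk hkv => by
    refine hfix v fun g => ?_
    by_contra hg
    exact hk (h.uniq (stabV ρ v) hv (fun e => hg (show g ∈ stabV ρ v from e ▸ mem_top g)) hkv)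
  obtain ⟨g, hg⟩ : ∃ g, g ∉ M := by
    by_contra hc
    push Not at hc
    exact h.ne (eq_top_iff.2 fun g _ => hc g)
  obtain ⟨b₀, hb₀, hb⟩ : ∃ b₀ ∈ Q, g * b₀ * g⁻¹ ∉ M := by
    have := h.ncj g hg
    rw [cj_le_iff] at this
    push Not at this
    exact this
  obtain ⟨a, ha, ha'⟩ : ∃ a ∈ Q, g⁻¹ * a * g ∉ M := by
    have := h.ncj g⁻¹ (fun h1 => hg (inv_mem_iff.1 h1))
    rw [cj_le_iff] at this
    push Not at this
    simpa using this
  set b := g * b₀ * g⁻¹ with hbd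
  let U₁ : Submodule (ZMod p) V := ⨅ r : Q, LinearMap.ker (ρ r - 1)
  have hU₁ : ∀ v, v ∈ U₁ ↔ ∀ r ∈ Q, ρ r v = v := fun v => by
    simp only [U₁, Submodule.mem_iInf, LinearMap.mem_ker, LinearMap.sub_apply,
      Module.End.one_apply, sub_eq_zero, Subtype.forall]
  let U₂ := U₁.comap (ρ g⁻¹)
  have hm : ∀ x y v, ρ x (ρ y v) = ρ (x * y) v := fun x y v => by rw [map_mul]; rfl
  have hinj : ∀ v, ρ g⁻¹ v = 0 → v = 0 := fun v hv => by
    have := congrArg (ρ g) hv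
    rwa [hm, mul_inv_cancel, map_one, map_zero] at this
  have hy : ∀ v, ρ b v - v ∈ U₂ := fun v => by
    show ρ g⁻¹ (ρ b v - v) ∈ U₁
    rw [map_sub, hm, show g⁻¹ * b = b₀ * g⁻¹ by rw [hbd]; group, ← hm]
    exact (hU₁ _).2 fun r hr => hquad r hr b₀ hb₀ _
  have hy2 : ∀ v ∈ U₂, ρ b v = v := fun v hv => by
    rw [hbd, ← hm, ← hm, (hU₁ _).1 hv b₀ hb₀, hm, mul_inv_cancel, map_one]; rfl
  have hy1 : ∀ v ∈ U₁, ρ b v = v → v = 0 := fun v hv h1 => key v ((hU₁ v).1 hv) b hb h1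
  let H := closure ({a, b} : Set K)
  have hq : QP (ρ.comp H.subtype) ⟨a, subset_closure (by simp)⟩ ⟨b, subset_closure (by simp)⟩
      U₁ U₂ :=
    ⟨closure_pair_subtype a b, fun v => (hU₁ _).2 fun r hr => hquad r hr a ha v, hy,
      fun v hv => (hU₁ v).1 hv a ha, hy2, hy1, fun v hv h1 => hinj v (key _ ((hU₁ _).1 hv) _ ha' (by
        rw [hm, mul_inv_cancel_right, ← hm]
        exact congrArg _ h1))⟩
  obtain ⟨x, hx, hx0⟩ := (Submodule.ne_bot_iff _).1 hD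
  obtain ⟨d₀, hd₀, hd₀0, hd₀1⟩ := exists_fixed_vec ρ h.pQ (X := D)
    (fun r hr => hDM r (h.le hr)) hx hx0
    (by rw [← Nat.cast_smul_eq_nsmul (ZMod p), ZMod.natCast_self, zero_smul])
  have hpa : IsPGroup p (zpowers (⟨a, subset_closure (by simp)⟩ : H)) :=
    (isPGroup_subgroupOf h.pQ H).to_le (zpowers_le.2 ha)
  obtain ⟨R, τ, V', e, hL⟩ := lin0 hp2 hq hpa hd₀ ((hU₁ _).2 hd₀1) hd₀0 (hDM a (h.le ha))
    (M := M.subgroupOf H) (fun X hX hX1 k hk => by
      refine h.uniq (stabS ρ X) (fun r hr v hv => ?_) (fun e => hX ?_) hk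
      · rwa [(hU₁ v).1 (hX1 hv) r hr]
      · refine (Submodule.eq_bot_iff _).2 fun v hv => hy1 v (hX1 hv) (sub_eq_zero.1 ?_)
        have h1 : b ∈ stabS ρ X := e ▸ mem_top b
        exact hy1 _ (hX1 (X.sub_mem (h1 v hv) hv)) (hy2 _ (hy v))) lam
  exact ⟨_, _, _, _, hL.map_subtype⟩

theorem UQ.exists_not_mem [Finite K] {Q M : Subgroup K} (h : UQ p Q M) :
    ∃ k, (orderOf k).Coprime p ∧ k ∉ M := by
  by_contra hc
  push Not at hc
  obtain ⟨P, hP⟩ := h.pQ.exists_le_sylow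
  by_cases hPt : (P : Subgroup K) = ⊤
  · have hK : IsPGroup p (⊤ : Subgroup K) := hPt ▸ P.isPGroup'
    obtain ⟨g, hg, hgM⟩ := SetLike.exists_of_lt (lt_inf_normalizer hK (lt_top_iff_ne_top.2 h.ne))
    exact h.ncj g hgM ((cj_mono g h.le).trans (cj_eq_of_mem_normalizer hg.2).le)
  · exact h.ne (eq_top_iff.2 ((pResidual_sup_sylow P).symm.le.trans
      (sup_le (pResidual_le_iff_forall.2 hc) (h.uniq P hP hPt))))

theorem lin2 [Finite K] [Finite V] (hp2 : p ≠ 2) {ρ : K →* Module.End (ZMod p) V}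
    {Q M : Subgroup K} (h : UQ p Q M)
    (hquad : ∀ a ∈ Q, ∀ b ∈ Q, ∀ v, ρ a (ρ b v - v) = ρ b v - v)
    {D : Submodule (ZMod p) V} (hD : D ≠ ⊥) (hDM : ∀ m ∈ M, ∀ v ∈ D, ρ m v ∈ D)
    (hTI : ∀ v ∈ D, v ≠ 0 → ∀ k, ρ k v = v → k ∈ M) (lam : (ZMod p)ˣ) :
    ∃ R τ V' e, LD ρ M D lam R τ V' e := by
  let W : Submodule (ZMod p) V := ⨅ k : {k : K // (orderOf k).Coprime p}, LinearMap.ker (ρ k - 1)
  have hW : ∀ v, v ∈ W ↔ ∀ k, (orderOf k).Coprime p → ρ k v = v := fun v => by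
    simp only [W, Submodule.mem_iInf, LinearMap.mem_ker, LinearMap.sub_apply,
      Module.End.one_apply, sub_eq_zero, Subtype.forall]
  have hm : ∀ x y v, ρ x (ρ y v) = ρ (x * y) v := fun x y v => by rw [map_mul]; rfl
  have hinv : ∀ g, W ≤ W.comap (ρ g) := fun g v hv => (hW _).2 fun k hk => by
    have h1 : orderOf (g⁻¹ * k * g) = orderOf k := by
      have := MulEquiv.orderOf_eq (MulAut.conj g⁻¹) k
      simpa using this
    have := (hW v).1 hv (g⁻¹ * k * g) (h1 ▸ hk)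
    rw [hm, show k * g = g * (g⁻¹ * k * g) by group, ← hm, this]
  have : Finite (V ⧸ W) := Finite.of_surjective _ W.mkQ_surjective
  obtain ⟨R, τ, V', e, hL⟩ := lin1 hp2 (ρ := Representation.quotient ρ W hinv) h
    (fun a ha b hb y => by
      obtain ⟨v, rfl⟩ := W.mkQ_surjective y
      exact congrArg W.mkQ (hquad a ha b hb v))
    (fun y hy => by
      obtain ⟨v, rfl⟩ := W.mkQ_surjective y
      refine (Submodule.Quotient.mk_eq_zero W).2 ((hW v).2 fun k hk => ?_)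
      have h1 : ρ k v - v ∈ W := (Submodule.Quotient.eq W).1 (hy k)
      have h2 : ∀ n : ℕ, ρ (k ^ n) v = v + (n : ZMod p) • (ρ k v - v) := by
        intro n
        induction n with
        | zero => simp
        | succ n ih =>
          rw [pow_succ', ← hm, ih, map_add, map_smul, (hW _).1 h1 k hk, Nat.cast_succ]
          module
      have h3 := h2 (orderOf k)
      rw [pow_orderOf_eq_one, map_one, Module.End.one_apply, left_eq_add, smul_eq_zero,
        ZMod.natCast_eq_zero_iff] at h3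
      exact sub_eq_zero.1 (h3.resolve_left ((Nat.Prime.coprime_iff_not_dvd hp.out).1 hk.symm)))
    (D := D.map W.mkQ) (fun h0 => by
      obtain ⟨x, hx, hx0⟩ := (Submodule.ne_bot_iff _).1 hD
      have h1 : W.mkQ x ∈ D.map W.mkQ := ⟨x, hx, rfl⟩
      rw [h0] at h1
      obtain ⟨k, hk, hkM⟩ := h.exists_not_mem
      exact hkM (hTI x hx hx0 k ((hW x).1 ((Submodule.Quotient.mk_eq_zero W).1 h1) k hk)))
    (by rintro m hm _ ⟨v, hv, rfl⟩; exact ⟨ρ m v, hDM m hm v hv, rfl⟩) lam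
  exact ⟨_, _, _, _, hL.of_quotient hinv⟩

end Cfsg.Lib.ZJF
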