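import Cfsg.Agent.Trans.QdFree
import Cfsg.Agent.Trans.SylowIn
import Cfsg.Agent.Trans.Thompson

/-!
Two facts on linear groups for Glauberman's theorem on the failure of `ZJ`-control:
fixed vectors of `p`-groups and a torus element in a group generated by two transvections.
-/

set_option autoImplicit false

open Subgroup Matrix Cfsg.Lib.Trans Cfsg.Lib.Trans.Quad Cfsg.Lib.Trans.Qd

namespace Cfsg.Lib.ZJF

variable {p : ℕ} [hp : Fact p.Prime]

/-- a `p`-group fixes a nonzero vector of a finite invariant submodule with `p`-torsion. -/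
theorem exists_fixed_vec {k V H : Type*} [Ring k] [AddCommGroup V] [Module k V] [Finite V]
    [Group H] (ρ : H →* Module.End k V) {R : Subgroup H} (hR : IsPGroup p R)
    {X : Submodule k V} (hinv : ∀ r ∈ R, ∀ v ∈ X, ρ r v ∈ X) {x : V} (hx : x ∈ X) (hx0 : x ≠ 0)
    (hpx : p • x = 0) : ∃ v ∈ X, v ≠ 0 ∧ ∀ r ∈ R, ρ r v = v := by
  letI : MulAction R X :=
    { smul := fun r v => ⟨ρ r v, hinv r r.2 v v.2⟩
      one_smul := fun v => Subtype.ext (by
        show ρ ((1 : R) : H) v = v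
        rw [OneMemClass.coe_one, map_one]; rfl)
      mul_smul := fun r s v => Subtype.ext (by
        show ρ ((r * s : R) : H) v = ρ r (ρ s v)
        rw [Subgroup.coe_mul, map_mul]; rfl) }
  have hd : p ∣ Nat.card X := by
    have h1 : addOrderOf (⟨x, hx⟩ : X) = p :=
      addOrderOf_eq_prime (Subtype.ext hpx) fun h => hx0 (congrArg Subtype.val h)
    exact h1 ▸ addOrderOf_dvd_natCard _
  have h0 : (0 : X) ∈ MulAction.fixedPoints R X := fun r => Subtype.ext (map_zero (ρ r))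
  obtain ⟨v, hv, hv0⟩ := hR.exists_fixed_point_of_prime_dvd_card_of_fixed_point X hd h0
  exact ⟨v, v.2, fun h => hv0 (Subtype.ext h).symm,
    fun r hr => congrArg Subtype.val (hv ⟨r, hr⟩)⟩

/-- the diagonal matrix `diag(u, u⁻¹)`. -/
def dg {K : Type*} [Field K] (u : Kˣ) : SpecialLinearGroup (Fin 2) K :=
  ⟨!![(u : K), 0; 0, ((u⁻¹ : Kˣ) : K)], by simp [Matrix.det_fin_two]⟩

theorem coe_dg {K : Type*} [Field K] (u : Kˣ) :
    (dg u).1 = !![(u : K), 0; 0, ((u⁻¹ : Kˣ) : K)] := rfl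

theorem dg_mulVec {K : Type*} [Field K] (u : Kˣ) (v : Fin 2 → K) :
    (dg u).1 *ᵥ v = ![u * v 0, (u : K)⁻¹ * v 1] := by
  ext i
  fin_cases i <;> simp [coe_dg, mulVec, dotProduct, Fin.sum_univ_two]

theorem dg_mulVec_one {K : Type*} [Field K] (u : Kˣ) :
    (dg u).1 *ᵥ ![1, 0] = (u : K) • ![1, 0] := by
  rw [dg_mulVec]
  ext i
  fin_cases i <;> simp

theorem dg_mul {K : Type*} [Field K] (u v : Kˣ) : dg (u * v) = dg u * dg v := by
  apply Subtype.ext
  rw [Matrix.SpecialLinearGroup.coe_mul, coe_dg, coe_dg, coe_dg]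
  ext i j
  fin_cases i <;> fin_cases j <;> simp [mul_comm]

theorem dg_one {K : Type*} [Field K] : dg (1 : Kˣ) = 1 := by
  apply Subtype.ext
  rw [coe_dg]
  ext i j
  fin_cases i <;> fin_cases j <;> simp

theorem mulVec_two {K : Type*} [Field K] (g : SpecialLinearGroup (Fin 2) K) (v : Fin 2 → K) :
    g.1 *ᵥ v = ![g.1 0 0 * v 0 + g.1 0 1 * v 1, g.1 1 0 * v 0 + g.1 1 1 * v 1] := by
  ext i
  fin_cases i <;> simp [mulVec, dotProduct, Fin.sum_univ_two]

theorem exists_torus {K : Type*} [Field K] [Finite K] [Algebra (ZMod p) K] [CharP K p]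
    (hp2 : p ≠ 2) {l : K} (hl : l ≠ 0) (lam : (ZMod p)ˣ) :
    ∃ t ∈ transvPair l, ∃ s : K, (∀ v : Fin 2 → K, t.1 *ᵥ v =
      ![algebraMap (ZMod p) K lam * v 0 + s * v 1, (algebraMap (ZMod p) K lam)⁻¹ * v 1]) ∧
      (lam * lam = 1 → s = 0) := by
  obtain ⟨S, hS, ⟨e⟩⟩ := exists_SL_two_le_transvPair hp2 hl
  let σ := S.subtype.comp e.symm.toMonoidHom
  have hσ : Function.Injective σ := S.subtype_injective.comp e.symm.injective
  have hσΓ : ∀ s, σ s ∈ transvPair l := fun s => hS (e.symm s).2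
  obtain ⟨κ, hκ0, hκ⟩ := exists_form σ hσ
  have hpz : ∀ g : SpecialLinearGroup (Fin 2) K, g ^ p = 1 → IsPGroup p (zpowers g) := fun g hg =>
    TJ.ea_isPGroup (TJ.ea_zpowers hg)
  obtain ⟨P, hP, hlP⟩ := exists_isSylowIn_ge (hpz _ (upT_pow_char p l))
    (zpowers_le.2 (upT_mem l))
  obtain ⟨γ, hγ, hγP⟩ := hP.exists_cj_le (hpz (σ (upT 1))
    (by rw [← map_pow, upT_pow_char, map_one])) (zpowers_le.2 (hσΓ _))
  obtain ⟨v, -, hv0, hv⟩ := exists_fixed_vec (natRep K (Fin 2)) hP.isPGroup (X := ⊤)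
    (fun _ _ _ _ => Submodule.mem_top) (x := ![1, 0]) Submodule.mem_top (by simp)
    (by ext i; simp)
  have hv1 : v 1 = 0 := by
    have := congrFun (hv _ (hlP (mem_zpowers _))) 0
    rw [natRep_apply, upT_mulVec] at this
    simpa [hl] using this
  have hv00 : v 0 ≠ 0 := fun h => hv0 (by ext i; fin_cases i <;> simp [h, hv1])
  set w := γ.1 *ᵥ κ ![1, 0] with hw
  have hconj : ∀ s, (γ * σ s * γ⁻¹).1 *ᵥ w = γ.1 *ᵥ κ (s.1 *ᵥ ![1, 0]) := fun s => by
    rw [hw, ← mul_mulVec, inv_mul_cancel_right, mul_mulVec, hκ]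
  have hw0 : w ≠ 0 := fun h => hκ0 (by
    have := congrArg (γ⁻¹.1 *ᵥ ·) h
    simp only [hw, mulVec_zero] at this
    rwa [← mul_mulVec, inv_mul_cancel, Matrix.SpecialLinearGroup.coe_one, one_mulVec] at this)
  have hw1 : w 1 = 0 := by
    by_contra hne
    set u := γ * σ (upT 1) * γ⁻¹ with hu
    have h1 : u.1 *ᵥ v = v := hv _ (hγP (conj_mem_cj.2 (mem_zpowers _)))
    have h2 : u.1 *ᵥ w = w := by
      rw [hconj, upT_mulVec]; simp [hw]
    rw [mulVec_two] at h1 h2
    have a0 := congrFun h1 0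
    have a1 := congrFun h1 1
    have b0 := congrFun h2 0
    have b1 := congrFun h2 1
    simp only [cons_val_zero, cons_val_one, hv1, mul_zero, add_zero] at a0 a1 b0 b1
    have c0 : u.1 0 0 = 1 := mul_right_cancel₀ hv00 (by rw [a0, one_mul])
    have c1 : u.1 1 0 = 0 := (mul_eq_zero.1 a1).resolve_right hv00
    rw [c0] at b0
    rw [c1] at b1
    have c2 : u.1 0 1 = 0 := (mul_eq_zero.1 (by linear_combination b0)).resolve_right hne
    have c3 : u.1 1 1 = 1 := mul_right_cancel₀ hne (by linear_combination b1)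
    have : u = 1 := Subtype.ext (by
      ext i j
      fin_cases i <;> fin_cases j <;> simp [c0, c1, c2, c3])
    rw [hu, mul_inv_eq_one, mul_eq_left, ← map_one σ] at this
    exact upT_one_ne_one (hσ this)
  have hw00 : w 0 ≠ 0 := fun h => hw0 (by ext i; fin_cases i <;> simp [h, hw1])
  set t := γ * σ (dg lam) * γ⁻¹ with ht
  set μ := algebraMap (ZMod p) K lam with hμ
  have hμ0 : μ ≠ 0 := (map_ne_zero _).2 lam.ne_zero
  have h2 : t.1 *ᵥ w = μ • w := by
    have h3 := dg_mulVec_one lam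
    rw [hconj, h3, hw, ← mulVec_smul, hμ, algebraMap_smul, ← map_smul]
  rw [mulVec_two] at h2
  have b0 := congrFun h2 0
  have b1 := congrFun h2 1
  simp only [cons_val_zero, cons_val_one, hw1, mul_zero, add_zero, Pi.smul_apply,
    smul_eq_mul] at b0 b1
  have c0 : t.1 0 0 = μ := mul_right_cancel₀ hw00 b0
  have c1 : t.1 1 0 = 0 := (mul_eq_zero.1 b1).resolve_right hw00
  have c3 : t.1 1 1 = μ⁻¹ := by
    have := t.2
    rw [det_fin_two, c0, c1] at this
    field_simp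
    linear_combination this
  refine ⟨t, mul_mem (mul_mem hγ (hσΓ _)) (inv_mem hγ), t.1 0 1, fun x => ?_, fun h => ?_⟩
  · rw [mulVec_two, c0, c1, c3]; simp
  · have h3 : t * t = 1 := by
      rw [ht, show γ * σ (dg lam) * γ⁻¹ * (γ * σ (dg lam) * γ⁻¹) =
        γ * (σ (dg lam) * σ (dg lam)) * γ⁻¹ by group, ← map_mul, ← dg_mul, h, dg_one, map_one]
      simp
    have h4 := congrFun (congrFun (congrArg Subtype.val h3) 0) 1
    rw [Matrix.SpecialLinearGroup.coe_mul, mul_apply, Fin.sum_univ_two, c0, c3] at h4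
    have h5 : μ * μ = 1 := by rw [hμ, ← map_mul, ← Units.val_mul, h]; simp
    have h6 : μ⁻¹ = μ := inv_eq_of_mul_eq_one_right h5
    rw [h6] at h4
    have h7 : 2 * μ * t.1 0 1 = 0 := by
      have : (1 : SpecialLinearGroup (Fin 2) K).1 0 1 = 0 := by simp
      linear_combination h4 + this
    exact (mul_eq_zero.1 h7).resolve_left (mul_ne_zero (two_ne_zero_of_charP hp2) hμ0)

end Cfsg.Lib.ZJF
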