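import Cfsg.Agent.ZJF.Defs

/-!
From the module-theoretic to the group-theoretic configuration.
-/

set_option autoImplicit false

open Subgroup Matrix Cfsg.Lib.Trans Cfsg.Lib.Trans.Quad Cfsg.Lib.Trans.Qd Cfsg.Lib.Solv
open scoped commutatorElement

namespace Cfsg.Lib.ZJF

local notation "𝐂" A:max => Subgroup.centralizer (SetLike.coe A)
local notation "𝐍" A:max => Subgroup.normalizer (SetLike.coe A)

variable {p : ℕ} [hp : Fact p.Prime] {G : Type*} [Group G]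

theorem fc_of_rep [Finite G] {K M B D : Subgroup G} {V : Type*} [AddCommGroup V]
    [Module (ZMod p) V] (ρ : K →* Module.End (ZMod p) V) (π : G → V) (hB : IsPGroup p B)
    (hKB : K ≤ 𝐍 B) (hBM : B ≤ M) (hadd : ∀ x ∈ B, ∀ y ∈ B, π (x * y) = π x + π y)
    (hs : ∀ v, ∃ x ∈ B, π x = v) (hact : ∀ k : K, ∀ x ∈ B, π (k * x * (k : G)⁻¹) = ρ k (π x))
    {D' : Submodule (ZMod p) V} (hD : ∀ v ∈ D', ∃ d ∈ D, d ∈ B ∧ π d = v) {lam : (ZMod p)ˣ}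
    {R : Subgroup K} {τ : K} {V' : Submodule (ZMod p) V} {e : V → Fin 2 → ZMod p}
    (h : LD ρ (M.subgroupOf K) D' lam R τ V' e) : FC M D lam := by
  have h1 : π 1 = 0 := by
    have := hadd 1 B.one_mem 1 B.one_mem
    rwa [mul_one, left_eq_add] at this
  let B' : Subgroup G :=
    { carrier := {x | x ∈ B ∧ π x ∈ V'}
      one_mem' := ⟨B.one_mem, h1 ▸ V'.zero_mem⟩
      mul_mem' := fun {a b} ha hb => ⟨B.mul_mem ha.1 hb.1, hadd a ha.1 b hb.1 ▸ V'.add_mem ha.2 hb.2⟩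
      inv_mem' := fun {a} ha => ⟨B.inv_mem ha.1, by
        have := hadd a ha.1 a⁻¹ (B.inv_mem ha.1)
        rw [mul_inv_cancel, h1, eq_comm, add_eq_zero_iff_neg_eq] at this
        exact this ▸ V'.neg_mem ha.2⟩ }
  have ha : ∀ (k : K) (m : SpecialLinearGroup (Fin 2) (ZMod p)),
      (∀ v ∈ V', ρ k v ∈ V' ∧ e (ρ k v) = m.1 *ᵥ e v) → Act B' (fun x => e (π x)) k m :=
    fun k m hk x hx => ⟨⟨mem_normalizer_conj (hKB k.2) hx.1, hact k x hx.1 ▸ (hk _ hx.2).1⟩, by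
      show e (π _) = _
      rw [hact k x hx.1, (hk _ hx.2).2]⟩
  have hadd' : ∀ x ∈ B', ∀ y ∈ B', e (π (x * y)) = e (π x) + e (π y) := fun x hx y hy => by
    rw [hadd x hx.1 y hy.1, h.add _ hx.2 _ hy.2]
  have hR : R.map K.subtype ≤ unip B' (fun x => e (π x)) := by
    rintro _ ⟨r, hr, rfl⟩
    obtain ⟨c, hc⟩ := h.actR r hr
    exact ⟨c, ha r _ hc⟩
  have hRN : R.map K.subtype ≤ 𝐍 B' := fun r hr => (hR hr).choose_spec.mem_normalizer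
  have hτ := ha τ _ h.actτ
  refine ⟨R.map K.subtype ⊔ B', B', τ, fun x => e (π x), sup_le ?_ fun x hx => hBM hx.1,
    IsPGroup.to_sup_of_normal_right' (h.pR.map _) (hB.to_le fun x hx => hx.1) hRN, le_sup_right,
    h.τM, ?_, hadd', fun y => ?_, fun r hr => ?_, ?_, hτ, ?_⟩
  · rintro _ ⟨r, hr, rfl⟩
    exact h.RM hr
  · rw [← cj_eq_self_iff, cj_sup, cj_eq_of_mem_normalizer hτ.mem_normalizer,
      cj_eq_of_mem_normalizer (g := (τ : G)) (le_normalizer_map K.subtype ⟨τ, h.τR, rfl⟩)]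
  · obtain ⟨v, hv, rfl⟩ := h.surj y
    obtain ⟨x, hx, rfl⟩ := hs v
    exact ⟨x, ⟨hx, hv⟩, rfl⟩
  · exact sup_le hR (fun x hx => ⟨0, upT_zero (K := ZMod p) ▸ Act.of_mem hadd' hx⟩) hr
  · obtain ⟨r, hr, h2⟩ := h.nt
    obtain ⟨c, hc⟩ := h.actR r hr
    exact ⟨r, mem_sup_left ⟨r, hr, rfl⟩, ha r _ fun v hv => ⟨(hc v hv).1, h2 v hv⟩⟩
  · obtain ⟨v, hv, h2, h3⟩ := h.vec
    obtain ⟨d, hd, hdB, rfl⟩ := hD v hv
    exact ⟨d, hd, ⟨hdB, h2⟩, h3⟩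

theorem fc_of_uq [Finite G] (hp2 : p ≠ 2) {K Q M B W D : Subgroup G} [W.Normal]
    (hB : IsPGroup p B) (hKB : K ≤ 𝐍 B) (hBB : ⁅B, B⁆ ≤ W) (hBp : ∀ b ∈ B, b ^ p ∈ W)
    (hQK : Q ≤ K) (hQM : Q ≤ M) (hKM : ¬ K ≤ M) (hQ : IsPGroup p Q)
    (huniq : ∀ L, Q ≤ L → L < K → L ≤ M) (hncj : ∀ g ∈ K, g ∉ M → ¬ cj g Q ≤ M)
    (hquad : ⁅⁅B, Q⁆, Q⁆ ≤ W) (hD : ∃ d ∈ D, d ∈ B ∧ d ∉ W) (hM : M ≤ 𝐍 D) (hBM : B ≤ M)
    (hTI : ∀ d ∈ D, d ∈ B → d ∉ W → ∀ k ∈ K, k * d * k⁻¹ * d⁻¹ ∈ W → k ∈ M) (lam : (ZMod p)ˣ) :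
    FC M D lam := by
  classical
  let f := QuotientGroup.mk' W
  have hf : ∀ x, f x = 1 ↔ x ∈ W := fun x => QuotientGroup.eq_one_iff x
  have : ElemAb p (B.map f) := ElemAb.of_isElementaryAbelian (TJ.ea_iff.2 ⟨by
    rintro _ ⟨x, hx, rfl⟩ _ ⟨y, hy, rfl⟩
    rw [← commutatorElement_eq_one_iff_mul_comm, ← map_commutatorElement, hf]
    exact hBB (commutator_mem_commutator hx hy), by
    rintro _ ⟨x, hx, rfl⟩
    rw [← map_pow, hf]
    exact hBp x hx⟩)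
  have hKN : ∀ k : K, (f.comp K.subtype) k ∈ 𝐍 (B.map f) := fun k =>
    le_normalizer_map f ⟨k, hKB k.2, rfl⟩
  let ρ := Vec.rep p ((conjAutOf (B.map f) (𝐍 (B.map f)) le_rfl).comp
    ((f.comp K.subtype).codRestrict _ hKN))
  let π : G → Vec p (B.map f) := fun x =>
    if h : f x ∈ B.map f then Vec.ofMul p (⟨f x, h⟩ : B.map f) else 0
  have hπ : ∀ x (hx : x ∈ B), π x = Vec.ofMul p (⟨f x, x, hx, rfl⟩ : B.map f) := fun x hx =>
    dif_pos _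
  have hadd : ∀ x ∈ B, ∀ y ∈ B, π (x * y) = π x + π y := fun x hx y hy => by
    rw [hπ _ (B.mul_mem hx hy), hπ x hx, hπ y hy, ← Vec.ofMul_mul]
    congr 1
  have hs : ∀ v, ∃ x ∈ B, π x = v := fun v => by
    obtain ⟨x, hx, hxv⟩ := (Vec.toMul v).2
    exact ⟨x, hx, by rw [hπ x hx]; exact congrArg (Vec.ofMul p) (Subtype.ext hxv)⟩
  have hact : ∀ k : K, ∀ x ∈ B, π (k * x * (k : G)⁻¹) = ρ k (π x) := fun k x hx => by
    rw [hπ _ (mem_normalizer_conj (hKB k.2) hx), hπ x hx]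
    rfl
  have heq : ∀ x ∈ B, ∀ y ∈ B, π x = π y ↔ x * y⁻¹ ∈ W := fun x hx y hy => by
    rw [hπ x hx, hπ y hy, (Vec.ofMul p).injective.eq_iff, Subtype.ext_iff, ← hf, map_mul, map_inv,
      mul_inv_eq_one]
  have h1 : π 1 = 0 := by
    have := hadd 1 B.one_mem 1 B.one_mem
    rwa [mul_one, left_eq_add] at this
  have h0 : ∀ x ∈ B, π x = 0 ↔ x ∈ W := fun x hx => by
    rw [← h1, heq x hx 1 B.one_mem, inv_one, mul_one]
  have hsub : ∀ x ∈ B, ∀ y ∈ B, π (x * y⁻¹) = π x - π y := fun x hx y hy => by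
    have := hadd _ (B.mul_mem hx (B.inv_mem hy)) y hy
    rw [inv_mul_cancel_right] at this
    rw [this, add_sub_cancel_right]
  let D' := Vec.subEquiv p (B.map f) (((D ⊓ B).map f).subgroupOf (B.map f))
  have hD' : ∀ v, v ∈ D' ↔ ∃ d ∈ D, d ∈ B ∧ π d = v := fun v => by
    constructor
    · rintro ⟨d, ⟨h2, h3⟩, h4⟩
      exact ⟨d, h2, h3, by rw [hπ d h3]; exact congrArg (Vec.ofMul p) (Subtype.ext h4)⟩
    · rintro ⟨d, h2, h3, rfl⟩
      rw [hπ d h3]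
      exact ⟨d, ⟨h2, h3⟩, rfl⟩
  obtain ⟨R, τ, V', e, hL⟩ := lin2 hp2 (ρ := ρ) (Q := Q.subgroupOf K) (M := M.subgroupOf K)
    ⟨comap_mono hQM, fun h => hKM (subgroupOf_eq_top.1 h), isPGroup_subgroupOf hQ K,
      fun L h2 h3 => by
        rw [← map_subtype_le_map_subtype, subgroupOf_map_subtype]
        refine le_inf (huniq _ ?_ (lt_of_le_of_ne (map_subtype_le L) fun h4 => h3 ?_))
          (map_subtype_le L)
        · exact fun x hx => ⟨⟨x, hQK hx⟩, h2 hx, rfl⟩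
        · refine eq_top_iff.2 fun x _ => ?_
          obtain ⟨y, hy, hyx⟩ : (x : G) ∈ L.map K.subtype := h4.symm ▸ x.2
          exact (Subtype.ext hyx : y = x) ▸ hy,
      fun g hg h2 => hncj g g.2 hg (cj_le_iff.2 fun x hx =>
        cj_le_iff.1 h2 ⟨x, hQK hx⟩ hx)⟩
    (fun a ha b hb v => by
      obtain ⟨x, hx, rfl⟩ := hs v
      have h2 := mem_normalizer_conj (hKB b.2) hx
      have h3 := B.mul_mem h2 (B.inv_mem hx)
      rw [← hact b x hx, ← hsub _ h2 x hx, ← hact a _ h3,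
        heq _ (mem_normalizer_conj (hKB a.2) h3) _ h3]
      refine hquad ?_
      rw [commutator_comm]
      refine commutator_mem_commutator ha ?_
      rw [commutator_comm]
      exact commutator_mem_commutator hb hx)
    (D := D') (by
      obtain ⟨d, h2, h3, h4⟩ := hD
      exact (Submodule.ne_bot_iff _).2 ⟨π d, (hD' _).2 ⟨d, h2, h3, rfl⟩, fun h => h4 ((h0 d h3).1 h)⟩)
    (fun m hm v hv => by
      obtain ⟨d, h2, h3, rfl⟩ := (hD' v).1 hv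
      exact (hD' _).2 ⟨_, mem_normalizer_conj (hM hm) h2, mem_normalizer_conj (hKB m.2) h3,
        hact m d h3⟩)
    (fun v hv hv0 k hk => by
      obtain ⟨d, h2, h3, rfl⟩ := (hD' v).1 hv
      rw [← hact k d h3, heq _ (mem_normalizer_conj (hKB k.2) h3) d h3] at hk
      exact hTI d h2 h3 (fun h => hv0 ((h0 d h3).2 h)) k k.2 hk) lam
  exact fc_of_rep ρ π hB hKB hBM hadd hs hact (fun v hv => (hD' v).1 hv) hL

end Cfsg.Lib.ZJF
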